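import Cfsg.Agent.H23.RI3
import Cfsg.Agent.AC.Top

/-!
# Involutions with odd products between blocks
-/

set_option autoImplicit false

namespace Cfsg.Agent.H23.RI

open Subgroup Cfsg.Agent.BS.Bd
open scoped commutatorElement

universe u

theorem mid {G : Type*} [Group G] {d y : G} (hd : d * d = 1) (hy : y * y = 1)
    (ho : Odd (orderOf (d * (y * d * y)))) :
    ∃ w t : G, t = w * d * w⁻¹ ∧ t * y = y * t ∧ t * d * t = y * d * y := by
  have hd' : ∀ x, d * (d * x) = x := fun x => by rw [← mul_assoc, hd, one_mul]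
  have hy' : ∀ x, y * (y * x) = x := fun x => by rw [← mul_assoc, hy, one_mul]
  obtain ⟨m, hm⟩ := H11.exists_sq_eq_of_odd ho
  obtain ⟨k, hk⟩ := H11.exists_sq_eq_of_odd (H11.odd_orderOf_pow ho m)
  have h0 : (d * (y * d * y))⁻¹ = y * d * y * d := by
    rw [inv_eq_iff_mul_eq_one]; simp only [mul_assoc, hy', hd', hd]
  have h1 : SemiconjBy d (d * (y * d * y)) (d * (y * d * y))⁻¹ := by
    rw [h0, SemiconjBy]; simp only [mul_assoc, hd', hd, mul_one]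
  have h2 : SemiconjBy y (d * (y * d * y)) (d * (y * d * y))⁻¹ := by
    rw [h0, SemiconjBy]; simp only [mul_assoc, hy, mul_one]
  have h3 := (h1.pow_right m).pow_right k
  have h4 := (h2.pow_right m).pow_right k
  rw [inv_pow, inv_pow] at h3 h4
  rw [← hk] at hm
  generalize ((d * (y * d * y)) ^ m) ^ k = w at h3 h4 hm
  have h5 : ∀ x, d * (w⁻¹ * x) = w * (d * x) := fun x => by
    rw [← mul_assoc, h3.inv_right.eq, inv_inv, mul_assoc]
  have h6 : ∀ x, y * (w⁻¹ * x) = w * (y * x) := fun x => by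
    rw [← mul_assoc, h4.inv_right.eq, inv_inv, mul_assoc]
  have h7 : w * (w * (w * w)) = d * (y * (d * y)) := by simpa only [pow_two, mul_assoc] using hm
  refine ⟨w⁻¹, w⁻¹ * (w⁻¹ * d), by rw [inv_inv, mul_assoc, h3.eq], ?_, ?_⟩
  · rw [h6, h6, ← mul_right_inj w, ← mul_right_inj w]
    simp only [mul_assoc, mul_inv_cancel_left]
    have h8 := congrArg (· * (y * d)) h7
    simpa only [mul_assoc, hy', hd', hd, mul_one] using h8.symm
  · rw [← mul_right_inj (w * (w * (w * w)))]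
    nth_rewrite 2 [h7]
    simp only [mul_assoc, mul_inv_cancel_left, hy', hd', hy, mul_one]

/-- every member fixes exactly one point; members fixing different points have odd product -/
structure OB (Ω : Type*) {G : Type*} [Group G] [MulAction G Ω] (D : Set G) : Prop where
  sq : ∀ u ∈ D, u * u = 1
  conj : ∀ u ∈ D, ∀ g : G, g * u * g⁻¹ ∈ D
  ex : ∀ u ∈ D, ∃ a : Ω, u • a = a
  ev : ∀ a : Ω, ∃ u ∈ D, u • a = a
  uniq : ∀ u ∈ D, ∀ a b : Ω, u • a = a → u • b = b → a = b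
  odd : ∀ u ∈ D, ∀ v ∈ D, ∀ a : Ω, u • a = a → v • a ≠ a → Odd (orderOf (u * v))

namespace OB

variable {G Ω : Type*} [Group G] [MulAction G Ω] {D : Set G} (h : OB Ω D) {u v e : G} {a b : Ω}
include h

theorem fix_of_co (hu : u ∈ D) (ha : u • a = a) (hc : v * u = u * v) : v • a = a :=
  h.uniq u hu _ _ (by rw [← mul_smul, ← hc, mul_smul, ha]) ha

theorem f2 (hu : u ∈ D) (hv : v ∈ D) (hc : u * v = v * u) (h1 : u * v ≠ 1) (ha : u • a = a) (he : e ∈ D)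
    (hz : e * (u * v) = u * v * e) : e • a = a := by
  by_contra h2
  have h3 := h.odd v hv e he a (h.fix_of_co hu ha hc.symm) h2
  refine h1 (odd_central (y := v * e) ?_ (Commute.mul_right ?_ hz.symm) h3 ?_)
  · rw [mul_assoc, ← mul_assoc v, ← hc, mul_assoc, h.sq v hv, mul_one, h.sq u hu]
  · rw [Commute, SemiconjBy, ← mul_assoc, ← hc]
  · rw [mul_assoc, ← mul_assoc v, h.sq v hv, one_mul]
    exact h.odd u hu e he a ha h2

theorem mid' {y d : G} {p : Ω} (hy : y * y = 1) (hp : y • p ≠ p) (hd : d ∈ D) (h1 : d • p = p) :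
    ∃ t ∈ D, t * y = y * t ∧ t • p = y • p ∧ d * (t * y) = t * y * d := by
  have hy' : y⁻¹ = y := inv_eq_of_mul_eq_one_right hy
  have h2 : y * d * y ∈ D := by simpa only [hy'] using h.conj d hd y
  have h3 : (y * d * y) • y • p = y • p := by rw [← mul_smul, mul_assoc, hy, mul_one, mul_smul, h1]
  obtain ⟨w, t, e, h4, h5⟩ := mid (h.sq d hd) hy (h.odd d hd _ h2 p h1 fun e => hp (h.uniq _ h2 _ _ h3 e))
  have h6 : t ∈ D := e ▸ h.conj d hd w
  refine ⟨t, h6, h4, h.uniq _ h2 _ _ ?_ h3, ?_⟩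
  · rw [← h5, ← mul_smul, mul_assoc, h.sq t h6, mul_one, mul_smul, h1]
  · rw [← mul_right_inj t, ← mul_left_inj y, ← mul_assoc, ← mul_assoc, h5]
    simp only [← mul_assoc, h.sq t h6, one_mul]
    rw [mul_assoc _ y y, hy, mul_one]

theorem conj_in {x : G} (hu : u ∈ D) (hv : v ∈ D) (ha : u • a = a) (hb : v • a ≠ a) (h1 : u * x = x * u)
    (h2 : v * x = x * v) : ∃ g, g * x = x * g ∧ g * u * g⁻¹ = v := by
  obtain ⟨m, hm⟩ := H11.exists_pow_conj_of_odd (h.sq u hu) (h.sq v hv) (h.odd u hu v hv a ha hb)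
  exact ⟨_, ((Commute.mul_left h1 h2).pow_left m).eq, hm⟩

theorem fix_all (hu : u ∈ D) (hv : v ∈ D) (hc : u * v = v * u) {b c : Ω} (hbc : b ≠ c) (hb : (u * v) • b = b)
    (hc' : (u * v) • c = c) (p : Ω) : (u * v) • p = p := by
  by_contra hp
  have h1 : u * v ≠ 1 := fun e => hp (by rw [e, one_smul])
  obtain ⟨a, ha⟩ := h.ex u hu
  have hz : u * v * (u * v) = 1 := by
    rw [mul_assoc, ← mul_assoc v, ← hc, mul_assoc, h.sq v hv, mul_one, h.sq u hu]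
  have hza : (u * v) • a = a := by rw [mul_smul, h.fix_of_co hu ha hc.symm, ha]
  obtain ⟨b, hba, hb⟩ : ∃ b, b ≠ a ∧ (u * v) • b = b := by
    by_cases e : b = a
    · exact ⟨c, e ▸ hbc.symm, hc'⟩
    · exact ⟨b, e, hb⟩
  have hF : ∀ g, ∀ e ∈ D, e * (g * (u * v) * g⁻¹) = g * (u * v) * g⁻¹ * e → e • g • a = g • a := fun g e he h2 => by
    rw [← conj_mul'] at h2
    refine h.f2 (h.conj u hu g) (h.conj v hv g) (by rw [conj_mul', conj_mul', hc]) (by rw [conj_mul']; simpa using h1)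
      (by rw [mul_smul, inv_smul_smul, mul_smul, ha]) he h2
  generalize u * v = z at *
  obtain ⟨d, hd, hdp⟩ := h.ev p
  obtain ⟨s, hs, s1, s2, s3⟩ := h.mid' hz hp hd hdp
  have s4 : s • a = a := by simpa using hF 1 s hs (by simpa using s1)
  have hx : s * z * (s * z) = 1 := by rw [mul_assoc, ← mul_assoc z, ← s1, mul_assoc, hz, mul_one, h.sq s hs]
  have hsx : s * (s * z) = s * z * s := by rw [mul_assoc s z, ← s1]
  have hxb : (s * z) • b ≠ b := fun e => hba (h.uniq s hs _ _ (by rwa [mul_smul, hb] at e) s4)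
  obtain ⟨t, ht, htb⟩ := h.ev b
  obtain ⟨t', ht', t1, t2, t3⟩ := h.mid' hx hxb ht htb
  obtain ⟨g, g1, g2⟩ : ∃ g, g * (s * z) = s * z * g ∧ g * s * g⁻¹ = t' := by
    by_cases e : t' • a = a
    · have h2 : d • a ≠ a := fun e1 => hp (h.uniq d hd _ _ e1 hdp ▸ hza)
      obtain ⟨g, g1, g2⟩ := h.conj_in hs hd s4 h2 hsx s3
      obtain ⟨k, k1, k2⟩ := h.conj_in ht' hd e h2 t1 s3
      exact ⟨k⁻¹ * g, ((Commute.inv_left k1).mul_left g1).eq, by
        rw [show k⁻¹ * g * s * (k⁻¹ * g)⁻¹ = k⁻¹ * (g * s * g⁻¹) * k by group, g2, ← k2]; group⟩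
    · exact h.conj_in hs ht' s4 e hsx t1
  have e : t' * (s * z) = g * z * g⁻¹ := by
    rw [← g2, mul_assoc, (Commute.inv_left g1).eq, ← mul_assoc, mul_assoc g, ← mul_assoc s, h.sq s hs, one_mul]
  have h2 := hF g t ht (e ▸ t3)
  have h3 := hF g t' ht' (by rw [← e, mul_assoc t', ← t1])
  rw [h.uniq t ht _ _ h2 htb] at h3
  exact hxb (t2 ▸ h3)

end OB

/-- the coset version of `OB` -/
structure OH {G : Type*} [Group G] (D : Set G) (H : Subgroup G) : Prop where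
  sq : ∀ u ∈ D, u * u = 1
  conj : ∀ u ∈ D, ∀ g : G, g * u * g⁻¹ ∈ D
  ex : ∀ u ∈ D, ∃ g, g * u * g⁻¹ ∈ H
  ne : ∃ u ∈ D, u ∈ H
  uq : ∀ u ∈ D, u ∈ H → ∀ g, g * u * g⁻¹ ∈ H → g ∈ H
  odd : ∀ u ∈ D, u ∈ H → ∀ v ∈ D, v ∉ H → Odd (orderOf (u * v))
  ne_top : H ≠ ⊤

namespace OH

section

variable {G : Type*} [Group G] {D : Set G} {H : Subgroup G} (h : OH D H) {u v : G}
include h

theorem not_mem {N : Subgroup G} [hN : N.Normal] (hle : N ≤ H) (hu : u ∈ D) : u ∉ N := fun h1 =>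
  h.ne_top (eq_top_iff.2 fun g _ => h.uq u hu (hle h1) g (hle (hN.conj_mem u h1 g)))

theorem n1 (hu : u ∈ D) : u ≠ 1 := fun e => h.not_mem bot_le hu e

theorem map {G' : Type*} [Group G'] (φ : G →* G') (hφ : Function.Surjective φ) (hk : φ.ker ≤ H) :
    OH (φ '' D) (H.map φ) := by
  have m : ∀ {g}, φ g ∈ H.map φ ↔ g ∈ H := fun {g} => by rw [← mem_comap, comap_map_eq_self hk]
  refine ⟨?_, ?_, ?_, ?_, ?_, ?_, fun e => h.ne_top (eq_top_iff.2 fun g _ => m.1 (e ▸ mem_top _))⟩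
  · rintro _ ⟨u, hu, rfl⟩
    rw [← map_mul, h.sq u hu, map_one]
  · rintro _ ⟨u, hu, rfl⟩ g
    obtain ⟨g, rfl⟩ := hφ g
    exact ⟨_, h.conj u hu g, by simp⟩
  · rintro _ ⟨u, hu, rfl⟩
    obtain ⟨g, hg⟩ := h.ex u hu
    exact ⟨φ g, by simpa using m.2 hg⟩
  · obtain ⟨u, hu, h1⟩ := h.ne
    exact ⟨_, ⟨u, hu, rfl⟩, m.2 h1⟩
  · rintro _ ⟨u, hu, rfl⟩ h1 g hg
    obtain ⟨g, rfl⟩ := hφ g
    exact m.2 (h.uq u hu (m.1 h1) g (m.1 (by simpa using hg)))
  · rintro _ ⟨u, hu, rfl⟩ h1 _ ⟨v, hv, rfl⟩ h2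
    rw [← map_mul]
    exact (h.odd u hu (m.1 h1) v hv (mt m.2 h2)).of_dvd_nat (orderOf_map_dvd φ _)

theorem ob : OB (G ⧸ H) D := by
  refine ⟨h.sq, h.conj, fun u hu => ?_, fun a => ?_, fun u hu a b ha hb => ?_, fun u hu v hv a ha hb => ?_⟩
  · obtain ⟨g, hg⟩ := h.ex u hu
    exact ⟨(g⁻¹ : G), fix_mk.2 (by simpa using hg)⟩
  · obtain ⟨x, rfl⟩ := QuotientGroup.mk_surjective a
    obtain ⟨u, hu, h1⟩ := h.ne
    exact ⟨_, h.conj u hu x, fix_mk.2 (by simpa [mul_assoc] using h1)⟩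
  · obtain ⟨g, hg⟩ := h.ex u hu
    have := h.uq _ (h.conj u hu g) hg
    rw [AC.fix_eq this ha, AC.fix_eq this hb]
  · obtain ⟨x, rfl⟩ := QuotientGroup.mk_surjective a
    have := h.odd _ (h.conj u hu x⁻¹) (by simpa using fix_mk.1 ha) _ (h.conj v hv x⁻¹)
      fun e => hb (fix_mk.2 (by simpa using e))
    rwa [conj_mul', H11.orderOf_conj] at this

theorem ze (h0 : H.normalCore = ⊥) : AC.ZE (G ⧸ H) D := by
  refine ⟨fun u hu => ⟨h.n1 hu, h.sq u hu⟩, h.conj, h.ob.ex, h.ob.uniq, fun u hu v hv hne e a b ha hb => ?_⟩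
  by_contra hab
  have h1 : u * v ∈ H.normalCore := Ker_pt.le ⟨trivial, fun p _ => h.ob.fix_all hu hv e hab ha hb p⟩
  rw [h0, mem_bot, ← h.sq v hv, mul_left_inj] at h1
  exact hne h1

end

variable {G : Type u} [Group G] [Finite G] {D : Set G} {H : Subgroup G} (h : OH D H)
include h

theorem bender [IsSimpleGroup G] : H11.IsBender G := by
  obtain ⟨u, hu, h1⟩ := h.ne
  exact isBender_of_se (AC.se_of_simple AC.shult h.ne_top (h.ze
    ((IsSimpleGroup.eq_bot_or_eq_top_of_normal H.normalCore inferInstance).resolve_right fun e =>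
      h.ne_top (top_le_iff.1 (e ▸ H.normalCore_le)))) hu h1)

theorem bd (h0 : H.normalCore = ⊥) (h2 : AC.TwD D ⊤) : ∃ Q, AC.BD D ⊤ (pt H) Q := by
  obtain ⟨u, hu, h1⟩ := h.ne
  have he : AC.EvD D ⊤ (pt H) := ⟨u, trivial, hu, fix_pt.2 h1⟩
  have hX : ¬ (⊤ : Subgroup G) ≤ St (pt H) := by rw [St_pt, top_le_iff]; exact h.ne_top
  obtain ⟨Q, hQ, -⟩ := (h.ze h0).exists_FD he hX h2 (AC.main (h.ze h0) he hX h2)
  exact ⟨Q, hQ⟩

theorem comm {a b : G} (ha : a ∈ D) (hb : b ∈ D) (hc : a * b = b * a) (hn : a * b ∉ H.normalCore) {s t : G}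
    (hs : s ∈ D) (ht : t ∈ D) (h1 : s ∈ H) (h2 : t ∈ H) : ⁅s, t⁆ ∈ H.normalCore := by
  let φ := QuotientGroup.mk' H.normalCore
  have hk : φ.ker ≤ H := (QuotientGroup.ker_mk' _).trans_le H.normalCore_le
  have h' := h.map φ (QuotientGroup.mk'_surjective _) hk
  have h0 : (H.map φ).normalCore = ⊥ := eq_bot_iff.2 fun x hx => by
    obtain ⟨x, rfl⟩ := QuotientGroup.mk'_surjective _ x
    refine (QuotientGroup.eq_one_iff x).2 fun g => ?_
    rw [← comap_map_eq_self hk, mem_comap, map_mul, map_mul, map_inv]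
    exact hx _
  obtain ⟨Q, hQ⟩ := h'.bd h0 ⟨_, trivial, _, trivial, ⟨a, ha, rfl⟩, ⟨b, hb, rfl⟩, fun e => hn
    ((QuotientGroup.eq_one_iff _).1 (by
      change φ _ = 1
      rw [map_mul, e, ← map_mul, h.sq b hb, map_one])), by rw [← map_mul, ← map_mul, hc]⟩
  have h3 := hQ.cm _ ⟨s, hs, rfl⟩ trivial (fix_pt.2 ⟨s, h1, rfl⟩) _
    (hQ.mem _ ⟨t, ht, rfl⟩ trivial (fix_pt.2 ⟨t, h2, rfl⟩))
  rw [Ker_pt, h0, mem_bot] at h3
  exact (QuotientGroup.eq_one_iff _).1 h3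

end OH

end Cfsg.Agent.H23.RI
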