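import Cfsg.Agent.H23.OB1

/-!
# Root involutions: block systems with odd products
-/

set_option autoImplicit false

namespace Cfsg.Agent.H23.RI

open Subgroup Cfsg.Agent.BS.Bd
open scoped commutatorElement

universe u

/-- an invariant equivalence relation whose different classes have odd products -/
structure Bl {G : Type*} [Group G] (D : Set G) (r : G → G → Prop) : Prop where
  refl : ∀ u, r u u
  symm : ∀ {u v}, r u v → r v u
  trans : ∀ {u v w}, r u v → r v w → r u w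
  conj : ∀ {u v}, r u v → ∀ g, r (g * u * g⁻¹) (g * v * g⁻¹)
  od : ∀ u ∈ D, ∀ v ∈ D, ¬ r u v → Od u v
  ne : ∃ u ∈ D, ∃ v ∈ D, ¬ r u v

section path

variable {G : Type*} [Group G] {adj : G → G → Prop} {a b : G}

omit [Group G] in
theorem rtg_symm (hs : ∀ {u v}, adj u v → adj v u) (h : Relation.ReflTransGen adj a b) :
    Relation.ReflTransGen adj b a := by
  induction h with
  | refl => exact .refl
  | tail _ h ih => exact .head (hs h) ih

theorem rtg_conj (hs : ∀ {u v}, adj u v → ∀ g, adj (g * u * g⁻¹) (g * v * g⁻¹)) (h : Relation.ReflTransGen adj a b)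
    (g : G) : Relation.ReflTransGen adj (g * a * g⁻¹) (g * b * g⁻¹) := by
  induction h with
  | refl => exact .refl
  | tail _ h ih => exact ih.tail (hs h g)

end path

namespace Bl

section

variable {G : Type*} [Group G] {D : Set G} {r : G → G → Prop} (h : Bl D r) {a b d u v : G}

/-- the stabiliser of a block -/
def stab (d : G) : Subgroup G where
  carrier := {g | r d (g * d * g⁻¹)}
  one_mem' := by simpa using h.refl d
  mul_mem' := fun {g k} hg hk => h.trans hg (by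
    rw [show g * k * d * (g * k)⁻¹ = g * (k * d * k⁻¹) * g⁻¹ by group]; exact h.conj hk g)
  inv_mem' := fun {g} hg => h.symm (by
    have := h.conj hg g⁻¹
    rwa [show g⁻¹ * (g * d * g⁻¹) * g⁻¹⁻¹ = d by group] at this)

include h in
theorem ne' (d : G) : ∃ v ∈ D, ¬ r d v := by
  by_contra! h1
  obtain ⟨u, hu, v, hv, h2⟩ := h.ne
  exact h2 (h.trans (h.symm (h1 u hu)) (h1 v hv))

variable (hD : IsRootInvolutionSet D)
include h hD

theorem cl : Cl D := by
  intro a ha b hb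
  by_cases h1 : r a b
  · obtain ⟨v, hv, h2⟩ := h.ne' a
    obtain ⟨g, hg⟩ : ∃ g, g * a * g⁻¹ = v := ⟨_, ((h.od a ha v hv h2).exists_conj hD ha hv).choose_spec⟩
    obtain ⟨k, hk⟩ : ∃ g, g * b * g⁻¹ = v :=
      ⟨_, ((h.od b hb v hv fun e => h2 (h.trans h1 e)).exists_conj hD hb hv).choose_spec⟩
    exact ⟨k⁻¹ * g, by rw [show k⁻¹ * g * a * (k⁻¹ * g)⁻¹ = k⁻¹ * (g * a * g⁻¹) * k by group, hg, ← hk]; group⟩
  · exact ⟨_, ((h.od a ha b hb h1).exists_conj hD ha hb).choose_spec.symm⟩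

theorem mem_iff (hd : d ∈ D) (hu : u ∈ D) : u ∈ h.stab d ↔ r d u := by
  have h1 : ∀ u ∈ D, r d u → u ∈ h.stab d := fun u hu h1 => h.trans h1 (h.symm (by
    simpa only [mul_inv_cancel_right] using h.conj h1 u))
  refine ⟨fun h2 => by_contra fun h3 => h3 ?_, h1 u hu⟩
  obtain ⟨m, hm⟩ := (h.od d hd u hu h3).exists_conj hD hd hu
  exact hm ▸ (pow_mem (mul_mem (h1 d hd (h.refl d)) h2) m : _ ∈ h.stab d)

theorem oh (hd : d ∈ D) : OH D (h.stab d) := by
  refine ⟨fun u hu => sq hD hu, hD.conj_mem, fun u hu => ?_, ⟨d, hd, (h.mem_iff hD hd hd).2 (h.refl d)⟩,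
    fun u hu h1 g h2 => ?_, fun u hu h1 v hv h2 => ?_, fun e => ?_⟩
  · obtain ⟨g, hg⟩ := h.cl hD u hu d hd
    exact ⟨g, hg ▸ (h.mem_iff hD hd hd).2 (h.refl d)⟩
  · exact h.trans ((h.mem_iff hD hd (hD.conj_mem u hu g)).1 h2) (h.symm (h.conj ((h.mem_iff hD hd hu).1 h1) g))
  · exact (h.od u hu v hv fun e => h2 ((h.mem_iff hD hd hv).2 (h.trans ((h.mem_iff hD hd hu).1 h1) e))).2
  · obtain ⟨v, hv, h1⟩ := h.ne' d
    exact h1 ((h.mem_iff hD hd hv).1 (e ▸ mem_top v))

theorem twoZ_le [Finite G] (hd : d ∈ D) : twoZCore G ≤ h.stab d := fun n hn => by_contra fun h1 => by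
  have h2 := h.od d hd _ (hD.conj_mem d hd n) h1
  refine mul_ne_one hD hd h2.1 (eq_one_of_odd_of_isPGroup (H24.isPGroup_pCore 2 G) ?_ h2.2)
  have h3 := mem_center_iff.1 hn (QuotientGroup.mk' _ d)
  rw [← QuotientGroup.eq_one_iff]
  change QuotientGroup.mk' _ _ = 1
  rw [map_mul, map_mul, map_mul, ← h3, map_inv, mul_inv_cancel_right, ← map_mul, sq hD hd, map_one]

end

variable {G : Type u} [Group G] [Finite G] {D : Set G} {r : G → G → Prop} (h : Bl D r) {a b s t : G}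
  (hD : IsRootInvolutionSet D) (hx : XX D a b)
include h hD hx

theorem bender : H11.IsBender (G ⧸ twoZCore G) := by
  haveI := simple_quot hD (h.cl hD) hx
  exact ((h.oh hD hx.l).map _ (QuotientGroup.mk'_surjective _)
    ((QuotientGroup.ker_mk' _).trans_le (h.twoZ_le hD hx.l))).bender

theorem comm_mem (hs : s ∈ D) (ht : t ∈ D) (h1 : r s t) : cm s t ∈ (h.stab s).normalCore :=
  comm_eq_cm hD hs ht ▸ (h.oh hD hs).comm hx.l hx.r hx.co ((h.oh hD hs).not_mem (normalCore_le _) hx.mul) hs ht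
    ((h.mem_iff hD hs hs).2 (h.refl s)) ((h.mem_iff hD hs ht).2 h1)

theorem not_fo (hs : s ∈ D) (ht : t ∈ D) : ¬ Fo s t := fun hf =>
  (h.oh hD hs).not_mem (normalCore_le _) (hf.mem hD hs ht)
    (h.comm_mem hD hx hs ht (by_contra fun e => (h.od s hs t ht e).not_fo hf))

theorem co (hs : s ∈ D) (ht : t ∈ D) (h1 : r s t) : s * t = t * s := by
  refine ((tri hD hs ht).resolve_right ?_)
  rintro (ho | hf)
  · have h2 := (normal_cases hD (h.cl hD) hx _).resolve_left (fun e => (h.oh hD hs).ne_top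
      (top_le_iff.1 (e ▸ normalCore_le _))) _ (h.comm_mem hD hx hs ht h1) s
    have e : ⁅cm s t, s⁆ = (s * t) ^ 4 := by
      rw [commutatorElement_def, iv hD hs, cm]
      simp only [mul_inv_rev, iv hD hs, iv hD ht, pow_succ, pow_zero, one_mul, mul_assoc, sq hD hs, mul_one]
    rw [e] at h2
    exact mul_ne_one hD hs ho.1 (eq_one_of_odd_four ho.2 (eq_one_of_odd_of_isPGroup (H24.isPGroup_pCore 2 G) h2
      (H11.odd_orderOf_pow ho.2 4)))
  · exact h.not_fo hD hx hs ht hf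

end Bl

variable {G : Type*} [Group G] {D : Set G} (hD : IsRootInvolutionSet D) {a b d s t x : G}
include hD

theorem bl_comm (h : ¬ IsConnectedSet (CommAdj D) D) : Bl D (Relation.ReflTransGen (CommAdj D)) := by
  refine ⟨fun _ => .refl, rtg_symm fun h => ⟨h.2.1, h.1, h.2.2.1.symm, h.2.2.2.symm⟩, .trans,
    rtg_conj fun h g => ⟨hD.conj_mem _ h.1 g, hD.conj_mem _ h.2.1 g, by simpa using h.2.2.1,
      by rw [conj_mul', conj_mul', h.2.2.2]⟩, fun u hu v hv h1 => ?_, by simpa [IsConnectedSet] using h⟩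
  rcases tri hD hu hv with h2 | h2 | h2
  · exact (h1 (by
      by_cases e : u = v
      · exact e ▸ .refl
      · exact .single ⟨hu, hv, e, h2⟩)).elim
  · exact h2
  · have h3 := h2.xl hD hu hv
    have h4 := (h2.xr hD hu hv).symm
    exact (h1 (.tail (.single ⟨h3.l, h3.r, h3.ne, h3.co⟩) ⟨h4.l, h4.r, h4.ne, h4.co⟩)).elim

omit hD in
theorem prod_iff : ProdAdj D a b ↔ XX D a b :=
  ⟨fun h => ⟨h.1, h.2.1, h.2.2.1, h.2.2.2.1, h.2.2.2.2⟩, fun h => ⟨h.l, h.r, h.ne, h.co, h.mul⟩⟩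

theorem conj_closure {S : Set G} (hS : S ⊆ D) (h1 : ∀ s ∈ S, ∀ t ∈ S, s * t * s ∈ S) {g : G} (hg : g ∈ closure S) :
    ∀ t ∈ S, g * t * g⁻¹ ∈ S := by
  induction hg using closure_induction'' with
  | one => simp
  | mem x hx => intro t ht; rw [iv hD (hS hx)]; exact h1 x hx t ht
  | inv_mem x hx => intro t ht; rw [inv_inv, iv hD (hS hx)]; exact h1 x hx t ht
  | mul x y _ _ hx hy =>
    intro t ht
    rw [show x * y * t * (x * y)⁻¹ = x * (y * t * y⁻¹) * x⁻¹ by group]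
    exact hx _ (hy t ht)

theorem sub_root {Y : Subgroup G} {S : Set G} (hS : S ⊆ D) (hY : closure S = Y)
    (h1 : ∀ g ∈ Y, ∀ t ∈ S, g * t * g⁻¹ ∈ S) (h2 : ∀ s ∈ S, ∀ t ∈ S, Fo s t → cm s t ∈ S) :
    IsRootInvolutionSet (Subtype.val ⁻¹' S : Set Y) := by
  refine ⟨fun d hd => by rw [← orderOf_coe]; exact hD.orderOf_eq _ (hS hd), ?_, fun d hd g => h1 g g.2 d hd,
    fun a ha b hb => ?_⟩
  · subst hY
    exact closure_closure_coe_preimage
  · rw [← orderOf_coe, coe_mul]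
    rcases tri hD (hS ha) (hS hb) with h | h | h
    · exact Or.inl (Subtype.ext h)
    · exact Or.inr (Or.inl h.2)
    · exact Or.inr (Or.inr ⟨h, by rw [pow_two]; exact h2 _ ha _ hb h⟩)

end Cfsg.Agent.H23.RI
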