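import Cfsg.Agent.H23.OB2

/-!
# Non-degenerate classes of root involutions: the product graph is connected
-/

set_option autoImplicit false

namespace Cfsg.Agent.H23.RI

open Subgroup
open scoped commutatorElement

universe u

/-- connected in the product graph -/
abbrev PC {G : Type*} [Group G] (D : Set G) : G → G → Prop := Relation.ReflTransGen (XX D)

section

variable {G : Type*} [Group G] {D : Set G} {a b d s t u v w x : G}

theorem PC.symm (h : PC D u v) : PC D v u := rtg_symm XX.symm h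

theorem PC.mem (h : PC D u v) (hu : u ∈ D) : v ∈ D := by
  induction h with
  | refl => exact hu
  | tail _ h _ => exact h.r

variable (hD : IsRootInvolutionSet D)
include hD

theorem PC.conj (h : PC D u v) (g : G) : PC D (g * u * g⁻¹) (g * v * g⁻¹) := rtg_conj (XX.conj hD) h g

theorem Fo.pc (hu : u ∈ D) (hv : v ∈ D) (h : Fo u v) : PC D u v :=
  .tail (.single (h.xl hD hu hv)) (h.xr hD hu hv).symm

theorem PC.od (h : PC D u w) (hv : v ∈ D) (hn : ¬ PC D u v) (ho : Od u v) : Od w v := by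
  induction h with
  | refl => exact ho
  | tail h1 h ih => exact (h.of hD hv ih).resolve_right fun e => hn ((h1.tail h).trans (e.pc hD h.r hv))

theorem co_of_not (hu : u ∈ D) (hv : v ∈ D) (hn : ¬ PC D u v) (ho : ¬ Od u v) : u * v = v * u :=
  ((tri hD hu hv).resolve_right fun h => h.elim ho fun e => hn (e.pc hD hu hv))

theorem PC.co (h : PC D u w) (hu : u ∈ D) (hv : v ∈ D) (hn : ¬ PC D u v) (hc : u * v = v * u) : w * v = v * w :=
  co_of_not hD (h.mem hu) hv (fun e => hn (h.trans e)) fun e =>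
    (h.symm.od hD hv (fun e => hn (h.trans e)) e).not_co hD hu hv hc

theorem exists_fo (hc : Cl D) (hs : s ∈ D) (ht : t ∈ D) (hf : Fo s t) (hu : u ∈ D) : ∃ v ∈ D, Fo u v := by
  obtain ⟨g, rfl⟩ := hc s hs u hu
  exact ⟨_, hD.conj_mem t ht g, hf.conj g⟩

end

theorem pc_aux (n : ℕ) : ∀ (G : Type u) [Group G] [Finite G] (D : Set G), Nat.card G = n → IsRootInvolutionSet D →
    Cl D → ∀ s ∈ D, ∀ t ∈ D, Fo s t → ∀ a ∈ D, ∀ b ∈ D, PC D a b := by
  induction n using Nat.strong_induction_on with | _ n ih => ?_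
  intro G _ _ D hn hD hc s hs t ht hf a ha b hb
  have key : ∀ u ∈ D, ∀ w ∈ D, ∀ x ∈ D, ¬ PC D u w → u * w = w * u → ¬ PC D x w → x * w = w * x → Od u x →
      PC D u x := by
    intro u hu w hw x hx h1 h2 h3 h4 h5
    by_contra h6
    let Y := closure ({v | PC D u v} ∪ {x})
    let S : Set G := {v | ∃ y ∈ Y, y * x * y⁻¹ = v}
    have hxY : x ∈ Y := subset_closure (Or.inr rfl)
    have s1 : S ⊆ D := by rintro _ ⟨y, -, rfl⟩; exact hD.conj_mem x hx y
    have s2 : ∀ v, PC D u v → v ∈ S := fun v hv => by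
      obtain ⟨m, hm⟩ := (hv.od hD hx h6 h5).symm.exists_conj hD hx (hv.mem hu)
      exact ⟨_, pow_mem (mul_mem hxY (subset_closure (Or.inl hv))) m, hm⟩
    have s3 : ∀ g ∈ Y, ∀ v ∈ S, g * v * g⁻¹ ∈ S := by
      rintro g hg _ ⟨y, hy, rfl⟩
      exact ⟨g * y, mul_mem hg hy, by group⟩
    have s4 : x ∈ S := ⟨1, one_mem _, by simp⟩
    have s5 : closure S = Y := le_antisymm ((closure_le _).2 (by
      rintro _ ⟨y, hy, rfl⟩
      exact mul_mem (mul_mem hy hxY) (inv_mem hy))) (closure_mono (by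
        rintro v (hv | rfl)
        · exact s2 v hv
        · exact s4))
    have s6 : ∀ v ∈ S, ∀ v', PC D v v' → v' ∈ S := by
      rintro _ ⟨y, hy, rfl⟩ v' hv
      obtain ⟨k, hk, e⟩ := s2 u .refl
      have h7 := hv.conj hD (k * y⁻¹)
      rw [show k * y⁻¹ * (y * x * y⁻¹) * (k * y⁻¹)⁻¹ = k * x * k⁻¹ by group, e] at h7
      have := s3 _ (inv_mem (mul_mem hk (inv_mem hy))) _ (s2 _ h7)
      rwa [show (k * y⁻¹)⁻¹ * (k * y⁻¹ * v' * (k * y⁻¹)⁻¹) * (k * y⁻¹)⁻¹⁻¹ = v' by group] at this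
    have hD' := sub_root hD s1 s5 s3 fun p hp q hq h => s6 p hp _ (.single (h.xl hD (s1 hp) (s1 hq)))
    have hc' : Cl (Subtype.val ⁻¹' S : Set Y) := by
      rintro p ⟨y, hy, e1⟩ q ⟨z, hz, e2⟩
      exact ⟨⟨z * y⁻¹, mul_mem hz (inv_mem hy)⟩, Subtype.ext (by
        simp only [coe_mul, coe_inv, ← e1, ← e2]; group)⟩
    have hY : Y ≠ ⊤ := fun e => by
      obtain ⟨w', hw', h7⟩ := exists_fo hD hc hs ht hf hw
      have : Y ≤ centralizer {w} := (closure_le _).2 (by
        rintro v (hv | rfl)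
        · exact mem_centralizer_singleton_iff.2 (PC.co hD hv hu hw h1 h2)
        · exact mem_centralizer_singleton_iff.2 h4)
      exact h7.not_co hD hw hw' (mem_centralizer_singleton_iff.1 (this (e ▸ mem_top w'))).symm
    obtain ⟨u', hu', h7⟩ := exists_fo hD hc hs ht hf hu
    have m : ∀ v ∈ S, v ∈ Y := fun v hv => s5 ▸ subset_closure hv
    have h8 := s2 u .refl
    have h9 := s2 u' (h7.pc hD hu hu')
    have := ih _ (hn ▸ (card_le_card_group Y).lt_of_ne (mt (eq_top_of_card_eq Y) hY)) Y _ rfl hD' hc'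
      ⟨u, m u h8⟩ h8 ⟨u', m u' h9⟩ h9 (by rw [Fo, ← orderOf_coe]; exact h7) ⟨u, m u h8⟩ h8 ⟨x, hxY⟩ s4
    exact h6 (Relation.ReflTransGen.lift (p := XX D) (Subtype.val : Y → G) (fun p q h => ⟨s1 h.l, s1 h.r,
      fun e => h.ne (Subtype.ext e), congrArg Subtype.val h.co, s1 h.mul⟩) _ _ this)
  have hcc : IsConnectedSet (CommAdj D) D := by_contra fun h =>
    (bl_comm hD h).not_fo hD (hf.xl hD hs ht) hs ht hf
  have h1 : ∀ u ∈ D, ∀ x ∈ D, Od u x → PC D u x := by
    intro u hu x hx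
    have := hcc u hu x hx
    clear hx
    induction this with
    | refl => exact fun _ => .refl
    | @tail x y _ h ih =>
      intro ho
      by_contra h2
      by_cases h3 : PC D u x
      · exact (h3.od hD h.2.1 h2 ho).not_co hD h.1 h.2.1 h.2.2.2
      have h4 := co_of_not hD hu h.1 h3 fun e => h3 (ih e)
      refine h2 (key u hu x h.1 y h.2.1 h3 h4 (fun e => ?_) h.2.2.2.symm ho)
      exact (e.od hD hu (fun e => h2 e.symm) ho.symm).not_co hD h.1 hu h4.symm
  obtain ⟨g, rfl⟩ := hc a ha b hb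
  clear hb
  revert a
  refine ind hD (P := fun g => ∀ a ∈ D, PC D a (g * a * g⁻¹)) (fun d hd a ha => ?_)
    (fun b _ => by simpa using Relation.ReflTransGen.refl) (fun g h h1 h2 b hb => ?_) g
  · by_cases h2 : PC D a d
    · have := h2.conj hD d
      rw [mul_inv_cancel_right] at this
      exact h2.trans this.symm
    · rw [← co_of_not hD ha hd h2 fun e => h2 (h1 a ha d hd e), mul_inv_cancel_right]
  · rw [show g * h * b * (g * h)⁻¹ = g * (h * b * h⁻¹) * g⁻¹ by group]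
    exact (h2 b hb).trans (h1 _ (hD.conj_mem b hb h))

variable {G : Type u} [Group G] [Finite G] {D : Set G} (hD : IsRootInvolutionSet D) (hc : Cl D)
  {a b d f s t x : G}
include hD hc

theorem conj_of_xx (h : XX D d f) (hx : x ∈ D) (ho : Od d x) (hf : Fo f x) : ∃ c, XX D d c ∧ c * (d * f) * c = f := by
  obtain ⟨c, c1, c2, c3⟩ := star hD hc h.symm fun e =>
    (od_iff.1 (e.symm ▸ od_iff.2 ⟨hx, ho⟩ : x ∈ oddPartners D f)).2.not_fo hf
  refine ⟨c, (c3 ▸ c2.xl hD c1 h.r).symm, ?_⟩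
  rw [← c3, cm_r hD h.r]
  simp only [mul_assoc, mm hD c1, sq hD c1, mul_one]

variable (hs : s ∈ D) (ht : t ∈ D) (hf : Fo s t)
include hs ht hf

theorem pc (ha : a ∈ D) (hb : b ∈ D) : PC D a b := pc_aux _ G D rfl hD hc s hs t ht hf a ha b hb

theorem gen (hd : d ∈ D) (hx : x ∈ D) (ho : Od d x) : closure (productPartners D d ∪ {x}) = ⊤ := by
  set Y := closure (productPartners D d ∪ {x})
  have hxY : x ∈ Y := subset_closure (Or.inr rfl)
  have h1 : ∀ f, XX D d f → f ∈ Y := fun f h => subset_closure (Or.inl ((xx_iff hd).2 h))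
  have hdY : d ∈ Y := by
    obtain ⟨g, e⟩ := hc s hs d hd
    have h2 := (hf.xl hD hs ht).conj hD g
    rw [← e] at h2
    exact (mul_mem_cancel_right (h1 _ h2)).1 (h1 _ (h2.third hD))
  have h2 : ∀ f ∈ D, f ∈ Y → Od f x → ∃ y ∈ Y, y * x * y⁻¹ = f := fun f hf h3 h4 => by
    obtain ⟨m, hm⟩ := h4.symm.exists_conj hD hx hf
    exact ⟨_, pow_mem (mul_mem hxY h3) m, hm⟩
  have h3 : ∀ f, XX D d f → ∃ y ∈ Y, y * x * y⁻¹ = f := fun f h => by
    rcases h.of hD hx ho with h4 | h4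
    · exact h2 f h.r (h1 f h) h4
    · obtain ⟨c, c1, c2⟩ := conj_of_xx hD hc h hx ho h4
      obtain ⟨y, hy, e⟩ := h2 _ h.mul (h1 _ (h.third hD)) (h.od_mul hD hx ho h4)
      exact ⟨c * y, mul_mem (h1 c c1) hy, by rw [← c2, ← e, mul_inv_rev, iv hD c1.r]; group⟩
  have h4 : ∀ e, PC D x e → ∃ y ∈ Y, y * x * y⁻¹ = e := fun e h => by
    induction h with
    | refl => exact ⟨1, one_mem _, by simp⟩
    | @tail p q _ h ih =>
      obtain ⟨y, hy, rfl⟩ := ih
      obtain ⟨k, hk, e⟩ := h2 d hd hdY ho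
      have h7 := h.conj hD (k * y⁻¹)
      rw [show k * y⁻¹ * (y * x * y⁻¹) * (k * y⁻¹)⁻¹ = k * x * k⁻¹ by group, e] at h7
      obtain ⟨z, hz, e1⟩ := h3 _ h7
      exact ⟨y * k⁻¹ * z, mul_mem (mul_mem hy (inv_mem hk)) hz, by
        rw [show y * k⁻¹ * z * x * (y * k⁻¹ * z)⁻¹ = y * k⁻¹ * (z * x * z⁻¹) * (k * y⁻¹) by group, e1]; group⟩
  rw [eq_top_iff, ← hD.generates, closure_le]
  intro e he
  obtain ⟨y, hy, rfl⟩ := h4 e (pc hD hc hs ht hf hx he)
  exact mul_mem (mul_mem hy hxY) (inv_mem hy)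

theorem weak_ti {T : Set G} (hT : IsWeakTISubsetOfElements D T) (ha : a ∈ T) (hb : b ∈ T) : a * b = b * a := by
  haveI : Fact (Nat.Prime 2) := ⟨Nat.prime_two⟩
  obtain ⟨h1, -, h2, h3⟩ := hT
  have h4 : ∀ r ∈ D, ∀ t ∈ T, r * t = t * r → ∀ v ∈ T, r * v * r⁻¹ ∈ T := fun r hr t ht h v hv =>
    ((h3 r hr).resolve_right (Set.not_disjoint_iff.2 ⟨t, ⟨t, ht, by simp only [h, mul_inv_cancel_right]⟩, ht⟩)).le
      ⟨v, hv, rfl⟩
  have h5 : ∀ a ∈ T, ∀ b ∈ T, ¬ Od a b := fun a ha b hb ho => h2 (h1.antisymm fun e he => by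
    let N : Subgroup G := normalizer T
    have m : ∀ r, (∀ v ∈ T, r * v * r⁻¹ ∈ T) → r ∈ N := fun r h => mem_normalizer_fintype h
    have : N = ⊤ := by
      rw [eq_top_iff, ← gen hD hc hs ht hf (h1 ha) (h1 hb) ho, closure_le]
      rintro r (hr | rfl)
      · exact m r (h4 r hr.1.1 a ha hr.1.2.1)
      · exact m r (h4 r (h1 hb) r hb rfl)
    obtain ⟨g, rfl⟩ := hc a (h1 ha) e he
    exact (mem_set_normalizer_iff.1 (this ▸ mem_top g : g ∈ N) a).1 ha)
  have hp := isPGroup_closure hD h1 (fun s hs t ht => by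
    simpa only [iv hD (h1 hs)] using h4 s (h1 hs) s hs rfl t ht) h5
  by_contra h0
  have h6 : Fo a b := ((tri hD (h1 ha) (h1 hb)).resolve_left h0).resolve_left (h5 a ha b hb)
  have h7 := (h6.xr hD (h1 ha) (h1 hb)).symm
  obtain ⟨c, c1, c2, c3⟩ := star hD hc h7 (odd_ne_of_fo hD hc h7.l h7.r (h1 ha) (h6.xl hD (h1 ha) (h1 hb)).co h0)
  have c4 : XX D c b := c3 ▸ c2.xl hD c1 h7.l
  have c5 : zpowers c ≤ normalizer (closure T : Subgroup G) := zpowers_le.2 (H24.mem_normalizer_of_cj_le (by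
    rw [H24.cj_closure, closure_le]
    rintro _ ⟨t, ht, rfl⟩
    exact subset_closure (h4 c c1 b hb c4.co t ht)))
  haveI := (H24.isPGroup_sup_of_le_normalizer_right (H24.isPGroup_zpowers (k := 1) (by
    rw [pow_one, pow_two, sq hD c1])) hp c5).isNilpotent
  have m : ∀ t ∈ T, t ∈ zpowers c ⊔ closure T := fun t ht => mem_sup_right (subset_closure ht)
  have := H24.eq_bot_of_le_commutator_of_isNilpotent (K := zpowers c ⊔ closure T) (V := closure {cm a b, b})
    ((closure_le _).2 (by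
      rintro _ (rfl | rfl)
      · exact mul_mem (mul_mem (m _ ha) (m _ hb)) (mul_mem (m _ ha) (m _ hb))
      · exact m _ hb)) le_rfl ((closure_le _).2 (by
      rintro v (rfl | hv)
      · rw [← cm_symm hD (h1 ha) (h1 hb) h6, ← comm_eq_cm hD (h1 hb) (h1 ha)]
        exact commutator_mem_commutator (subset_closure (Or.inr rfl)) (m _ ha)
      · rw [← cm_symm hD c1 h7.l c2, ← comm_eq_cm hD h7.l c1, ← hv] at c3
        rw [← c3, hv]
        exact commutator_mem_commutator (subset_closure (Or.inl rfl)) (mem_sup_left (mem_zpowers c))))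
  exact n1 hD (h1 hb) (mem_bot.1 (this ▸ subset_closure (Or.inr rfl)))

end Cfsg.Agent.H23.RI
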