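import Cfsg.Prelude.Def_RootSubgroups
import Cfsg.Agent.H8.Gagola2
import Cfsg.Agent.H24.Base6

/-!
# Root involutions: the elementary calculus
-/

set_option autoImplicit false

namespace Cfsg.Agent.H23.RI

open Subgroup

variable {G : Type*} [Group G] {D : Set G} {a b c d e f g u v w x y z : G}

theorem odd_central (hz : z * z = 1) (hc : Commute z y) (hy : Odd (orderOf y)) (h : Odd (orderOf (z * y))) :
    z = 1 := by
  obtain ⟨k, hk⟩ := h.mul hy
  have h1 : (z * y) ^ (orderOf (z * y) * orderOf y) = 1 := by rw [pow_mul, pow_orderOf_eq_one, one_pow]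
  rw [hc.mul_pow, mul_comm (orderOf (z * y)), pow_mul y, pow_orderOf_eq_one, one_pow, mul_one,
    mul_comm (orderOf y), hk, pow_succ, pow_mul, pow_two, hz, one_pow, one_mul] at h1
  exact h1

theorem eq_one_of_odd_four (hy : Odd (orderOf y)) (h : y ^ 4 = 1) : y = 1 :=
  orderOf_eq_one_iff.1 (Nat.Coprime.eq_one_of_dvd ((Nat.coprime_two_right.2 hy).pow_right 2)
    (orderOf_dvd_of_pow_eq_one h))

theorem four_iff : orderOf y = 4 ↔ y * y ≠ 1 ∧ y * y * (y * y) = 1 := by
  haveI : Fact (Nat.Prime 2) := ⟨Nat.prime_two⟩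
  constructor
  · intro h
    refine ⟨fun h1 => ?_, by rw [← pow_two, ← pow_two, ← pow_mul, show 2 * 2 = orderOf y from h.symm, pow_orderOf_eq_one]⟩
    have := orderOf_dvd_of_pow_eq_one (x := y) (n := 2) (by rwa [pow_two])
    rw [h] at this
    omega
  · rintro ⟨h1, h2⟩
    exact orderOf_eq_prime_pow (p := 2) (n := 1) (by rwa [pow_one, pow_two])
      (by rw [← h2, ← pow_two, ← pow_two, ← pow_mul]; rfl)

theorem cl (h : a * b = b * a) (y : G) : a * (b * y) = b * (a * y) := by rw [← mul_assoc, h, mul_assoc]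

/-- odd product -/
def Od (a x : G) : Prop := a ≠ x ∧ Odd (orderOf (a * x))

/-- product of order four -/
def Fo (a x : G) : Prop := orderOf (a * x) = 4

/-- the commutator of two involutions -/
def cm (a x : G) : G := a * x * (a * x)

/-- `b` is a product partner of `a` -/
structure XX (D : Set G) (a b : G) : Prop where
  l : a ∈ D
  r : b ∈ D
  ne : a ≠ b
  co : a * b = b * a
  mul : a * b ∈ D

theorem orderOf_swap (a x : G) : orderOf (a * x) = orderOf (x * a) := by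
  rw [← H11.orderOf_conj x (a * x)]; congr 1; group

theorem Od.symm (h : Od a x) : Od x a := ⟨h.1.symm, orderOf_swap a x ▸ h.2⟩

theorem Fo.symm (h : Fo a x) : Fo x a := (orderOf_swap x a).trans h

theorem XX.symm (h : XX D a b) : XX D b a := ⟨h.r, h.l, h.ne.symm, h.co.symm, h.co ▸ h.mul⟩

theorem conj_mul' (g a x : G) : g * a * g⁻¹ * (g * x * g⁻¹) = g * (a * x) * g⁻¹ := by group

theorem Od.conj (h : Od a x) (g : G) : Od (g * a * g⁻¹) (g * x * g⁻¹) :=
  ⟨fun e => h.1 (by simpa using e), by rw [conj_mul', H11.orderOf_conj]; exact h.2⟩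

theorem Fo.conj (h : Fo a x) (g : G) : Fo (g * a * g⁻¹) (g * x * g⁻¹) := by
  rw [Fo, conj_mul', H11.orderOf_conj]; exact h

theorem cm_conj (g a x : G) : cm (g * a * g⁻¹) (g * x * g⁻¹) = g * cm a x * g⁻¹ := by
  simp only [cm]; group

theorem Od.not_fo (h : Od a x) (h' : Fo a x) : False := by
  have := h.2
  rw [h'] at this
  exact absurd this (by decide)

theorem Fo.ne_one (h : Fo a x) : cm a x ≠ 1 := (four_iff.1 h).1

theorem xx_iff (ha : a ∈ D) : b ∈ productPartners D a ↔ XX D a b :=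
  ⟨fun h => ⟨ha, h.1.1, h.1.2.2.symm, h.1.2.1.symm, h.1.2.1 ▸ h.2⟩,
    fun h => ⟨⟨h.r, h.co.symm, h.ne.symm⟩, h.co ▸ h.mul⟩⟩

theorem od_iff : x ∈ oddPartners D a ↔ x ∈ D ∧ Od a x :=
  ⟨fun h => ⟨h.1, h.2.1.symm, h.2.2⟩, fun h => ⟨h.1, h.2.1.symm, h.2.2⟩⟩

section basic

variable (hD : IsRootInvolutionSet D)
include hD

theorem sq (ha : a ∈ D) : a * a = 1 := H11.mul_self_of_orderOf_two (hD.orderOf_eq a ha)

theorem mm (ha : a ∈ D) (y : G) : a * (a * y) = y := by rw [← mul_assoc, sq hD ha, one_mul]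

theorem iv (ha : a ∈ D) : a⁻¹ = a := inv_eq_of_mul_eq_one_right (sq hD ha)

theorem n1 (ha : a ∈ D) : a ≠ 1 := H11.ne_one_of_orderOf_two (hD.orderOf_eq a ha)

theorem cj (ha : a ∈ D) (hx : x ∈ D) : x * a * x ∈ D := by
  have := hD.conj_mem a ha x
  rwa [iv hD hx] at this

theorem mul_ne_one (ha : a ∈ D) (h : a ≠ x) : a * x ≠ 1 := fun e =>
  h (by rw [← iv hD ha]; exact inv_eq_of_mul_eq_one_right e)

theorem cm_eq_one_iff (ha : a ∈ D) (hx : x ∈ D) : cm a x = 1 ↔ a * x = x * a := by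
  rw [cm, mul_eq_one_iff_eq_inv, mul_inv_rev, iv hD ha, iv hD hx]

theorem Od.not_co (ha : a ∈ D) (hx : x ∈ D) (h : Od a x) (h' : a * x = x * a) : False :=
  mul_ne_one hD ha h.1 (H11.eq_one_of_odd_of_sq h.2 ((cm_eq_one_iff hD ha hx).2 h'))

theorem Fo.not_co (ha : a ∈ D) (hx : x ∈ D) (h : Fo a x) (h' : a * x = x * a) : False :=
  h.ne_one ((cm_eq_one_iff hD ha hx).2 h')

theorem tri (ha : a ∈ D) (hx : x ∈ D) : a * x = x * a ∨ Od a x ∨ Fo a x := by
  by_cases e : a = x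
  · exact Or.inl (by rw [e])
  rcases hD.pair a ha x hx with h | h | h
  · exact Or.inl h
  · exact Or.inr (Or.inl ⟨e, h⟩)
  · exact Or.inr (Or.inr h.1)

theorem Fo.mem (ha : a ∈ D) (hx : x ∈ D) (h : Fo a x) : cm a x ∈ D := by
  rcases hD.pair a ha x hx with h' | h' | h'
  · exact (h.not_co hD ha hx h').elim
  · rw [h] at h'; exact absurd h' (by decide)
  · rw [cm, ← pow_two]; exact h'.2

theorem pow_four (ha : a ∈ D) (hx : x ∈ D) (h : ¬ Od a x) : (a * x) ^ 4 = 1 := by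
  have e : (a * x) ^ 4 = cm a x * cm a x := by simp only [cm, pow_succ, pow_zero, one_mul, mul_assoc]
  rcases tri hD ha hx with h' | h' | h'
  · rw [e, (cm_eq_one_iff hD ha hx).2 h', mul_one]
  · exact absurd h' h
  · rw [← h', pow_orderOf_eq_one]

/-- no product of two root involutions has order twice an odd number greater than one -/
theorem key (hu : u ∈ D) (hv : v ∈ D) (hz : z * z = 1) (hz1 : z ≠ 1) (hc : z * y = y * z) (hy : Odd (orderOf y))
    (hy1 : y ≠ 1) (h : u * v = z * y) : False := by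
  by_cases ho : Od u v
  · exact hz1 (odd_central hz hc hy (h ▸ ho.2))
  have := pow_four hD hu hv ho
  rw [h, Commute.mul_pow hc, show z ^ 4 = z * z * (z * z) by simp only [pow_succ, pow_zero, one_mul, mul_assoc],
    hz, mul_one, one_mul] at this
  exact hy1 (eq_one_of_odd_four hy this)

theorem key' (ha : a ∈ D) (hx : x ∈ D) (h : Od a x) (hz : z * z = 1) (hz1 : z ≠ 1) (h1 : z * a = a * z)
    (h2 : z * x = x * z) : z * a ∉ D := fun hm =>
  key hD hm hx hz hz1 (Commute.mul_right h1 h2) h.2 (mul_ne_one hD ha h.1) (mul_assoc _ _ _)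

theorem XX.not_co (h : XX D a b) (hx : x ∈ D) (ho : Od a x) (hc : b * x = x * b) : False :=
  key' hD h.l hx ho (sq hD h.r) (n1 hD h.r) h.co.symm hc (h.co ▸ h.mul)

theorem XX.third (h : XX D a b) : XX D a (a * b) :=
  ⟨h.l, h.mul, fun e => n1 hD h.r (by simpa using e), by rw [mul_assoc, ← h.co], by rw [mm hD h.l]; exact h.r⟩

theorem XX.conj (h : XX D a b) (g : G) : XX D (g * a * g⁻¹) (g * b * g⁻¹) :=
  ⟨hD.conj_mem _ h.l g, hD.conj_mem _ h.r g, fun e => h.ne (by simpa using e),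
    by rw [conj_mul', conj_mul', h.co], by rw [conj_mul']; exact hD.conj_mem _ h.mul g⟩

theorem cm_symm (ha : a ∈ D) (hx : x ∈ D) (h : Fo a x) : cm x a = cm a x := by
  rw [← iv hD (h.mem hD ha hx)]
  simp only [cm, mul_inv_rev, iv hD ha, iv hD hx]

theorem l_cm (ha : a ∈ D) (x : G) : a * cm a x = x * a * x := by simp only [cm, mul_assoc, mm hD ha]

theorem cm_r (hx : x ∈ D) (a : G) : cm a x * x = a * x * a := by simp only [cm, mul_assoc, sq hD hx, mul_one]

theorem Fo.xl (ha : a ∈ D) (hx : x ∈ D) (h : Fo a x) : XX D a (cm a x) := by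
  refine ⟨ha, h.mem hD ha hx, fun e => ?_, ?_, by rw [l_cm hD ha]; exact cj hD ha hx⟩
  · have := l_cm hD ha x
    rw [← e, sq hD ha] at this
    exact n1 hD (cj hD ha hx) this.symm
  · rw [l_cm hD ha, ← cm_symm hD ha hx h, cm_r hD ha]

theorem Fo.xr (ha : a ∈ D) (hx : x ∈ D) (h : Fo a x) : XX D x (cm a x) :=
  cm_symm hD ha hx h ▸ h.symm.xl hD hx ha

theorem XX.of (h : XX D a b) (hx : x ∈ D) (ho : Od a x) : Od b x ∨ Fo b x :=
  (tri hD h.r hx).resolve_left (h.not_co hD hx ho)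

theorem XX.fo_cm (h : XX D a b) (hx : x ∈ D) (ho : Od a x) (hf : Fo b x) : Fo (cm b x) a := by
  have h1 := hf.xr hD h.r hx
  have h2 := hf.xl hD h.r hx
  refine (h1.of hD h.l ho.symm).resolve_left fun h3 => ?_
  exact h2.symm.not_co hD h.l h3 h.co.symm

theorem XX.od_mul (h : XX D a b) (hx : x ∈ D) (ho : Od a x) (hf : Fo b x) : Od (a * b) x := by
  refine ((h.third hD).of hD hx ho).resolve_right fun h3 => ?_
  have h1 := hf.xr hD h.r hx
  have h2 := h3.xr hD h.mul hx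
  have e : cm (a * b) x * cm b x = b * ((a * x) * (a * x)) * b⁻¹ := by
    rw [← cm_symm hD h.r hx hf, iv hD h.r]
    simp only [cm, mul_assoc, mm hD hx, mm hD h.r]
    rw [cl h.co]
  refine key hD h2.r (h1.co ▸ h1.mul) (sq hD hx) (n1 hD hx) (y := cm (a * b) x * cm b x)
    (Commute.mul_right h2.co h1.co) ?_ (fun e1 => ?_) ?_
  · rw [e, H11.orderOf_conj, ← pow_two]
    exact H11.odd_orderOf_pow ho.2 2
  · rw [e] at e1
    exact ho.not_co hD h.l hx ((cm_eq_one_iff hD h.l hx).1 (by simpa [cm] using e1))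
  · rw [← mul_assoc, ← mul_assoc, h2.co, mul_assoc, mul_assoc, h1.co]

theorem cm_inj_co {b' : G} (h : XX D a b) (h' : XX D a b') (hx : x ∈ D) (ho : Od a x) (hf : Fo b x) (hf' : Fo b' x)
    (e : cm b x = cm b' x) (hc : b * b' = b' * b) : b = b' := by
  have e1 : b * x * b = b' * x * b' := by rw [← cm_r hD hx, ← cm_r hD hx, e]
  have e2 : b' * b * x = x * (b' * b) := by
    rw [← mul_right_inj b', ← mul_left_inj b, ← mul_assoc, ← mul_assoc, sq hD h'.r, one_mul, e1]
    simp only [mul_assoc, sq hD h.r, mul_one]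
  have e3 : b' * b * (b' * b) = 1 := (cm_eq_one_iff hD h'.r h.r).2 hc.symm
  have e4 : Commute (b' * b) (a * b * x) := ((Commute.mul_left h'.co.symm h.co.symm).mul_right
    (Commute.mul_left hc.symm (Commute.refl b))).mul_right e2
  have := odd_central e3 e4 (h.od_mul hD hx ho hf).2 (by
    rw [show b' * b * (a * b * x) = a * b' * x by
      simp only [mul_assoc]; rw [cl h.co.symm, mm hD h.r, cl h'.co.symm]]
    exact (h'.od_mul hD hx ho hf').2)
  rw [← iv hD h'.r, inv_mul_eq_one] at this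
  exact this.symm

theorem cm_inj {b' : G} (h : XX D a b) (h' : XX D a b') (hx : x ∈ D) (ho : Od a x) (hf : Fo b x) (hf' : Fo b' x)
    (e : cm b x = cm b' x) : b = b' := by
  rcases tri hD h.r h'.r with h1 | h1 | h1
  · exact cm_inj_co hD h h' hx ho hf hf' e h1
  · exact (h.symm.not_co hD h'.r h1 h'.co).elim
  exfalso
  have e1 : b * x * b = b' * x * b' := by rw [← cm_r hD hx, ← cm_r hD hx, e]
  have e2 : b * b' * x = x * (b * b') := by
    rw [← mul_right_inj b, ← mul_left_inj b', ← mul_assoc, ← mul_assoc, sq hD h.r, one_mul, ← e1]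
    simp only [mul_assoc, sq hD h'.r, mul_one]
  have e3 : cm b b' * x = x * cm b b' := Commute.mul_left e2 e2
  have h2 := h1.xl hD h.r h'.r
  have h3 := h.conj hD b'
  rw [iv hD h'.r, ← h'.co, mul_assoc a, sq hD h'.r, mul_one, ← l_cm hD h.r] at h3
  have e4 : cm (b * cm b b') x = cm b x := by
    have h5 := h2.co.symm
    have h6 := sq hD h2.r
    generalize cm b b' = k at e3 h5 h6
    rw [cm, cm, mul_assoc b, e3]
    simp only [mul_assoc]
    rw [cl h5, cl e3, h6, mul_one]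
  have h4 : Fo (b * cm b b') x := (h3.of hD hx ho).resolve_left fun h5 =>
    n1 hD (hf.mem hD h.r hx) (H11.eq_one_of_odd_of_sq (by
      rw [← e4, cm, ← pow_two]; exact H11.odd_orderOf_pow h5.2 2) (sq hD (hf.mem hD h.r hx)))
  have := cm_inj_co hD h h3 hx ho hf h4 e4.symm (by rw [mul_assoc, ← h2.co])
  exact n1 hD h2.r (by simpa using this)

theorem exists_cm [Finite G] (h : XX D a b) (hx : x ∈ D) (ho : Od a x) (hf : Fo b x) :
    ∃ c, XX D x c ∧ Fo c a ∧ cm c a = b := by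
  have m : ∀ {a x : G}, x ∈ D → Od a x → Set.MapsTo (cm · x) {b | XX D a b ∧ Fo b x} {c | XX D x c ∧ Fo c a} :=
    fun hx ho b hb => ⟨hb.2.xr hD hb.1.r hx, hb.1.fo_cm hD hx ho hb.2⟩
  have i : ∀ {a x : G}, x ∈ D → Od a x → Set.InjOn (cm · x) {b | XX D a b ∧ Fo b x} :=
    fun hx ho b hb b' hb' e => cm_inj hD hb.1 hb'.1 hx ho hb.2 hb'.2 e
  obtain ⟨b', hb', e⟩ := (((Set.toFinite _).injOn_iff_bijOn_of_mapsTo ((m h.l ho.symm).comp (m hx ho))).1
    ((i h.l ho.symm).comp (i hx ho) (m hx ho))).surjOn ⟨h, hf⟩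
  exact ⟨_, (m hx ho hb').1, (m hx ho hb').2, e⟩

theorem Od.exists_conj (ha : a ∈ D) (hx : x ∈ D) (h : Od a x) : ∃ m : ℕ, (a * x) ^ m * a * ((a * x) ^ m)⁻¹ = x :=
  H11.exists_pow_conj_of_odd (sq hD ha) (sq hD hx) h.2

theorem Od.self_conj (ha : a ∈ D) (hx : x ∈ D) (h : Od a x) : Od a (x * a * x) := by
  refine ⟨fun e => h.not_co hD ha hx ?_, ?_⟩
  · rw [← mul_left_inj x, mul_assoc, sq hD hx, mul_one, ← e]
  · rw [show a * (x * a * x) = (a * x) ^ 2 by simp only [pow_two, mul_assoc]]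
    exact H11.odd_orderOf_pow h.2 2

theorem Od.conj_self (ha : a ∈ D) (hx : x ∈ D) (h : Od a x) : Od (x * a * x) x := by
  have := h.conj x
  rwa [iv hD hx, sq hD hx, one_mul] at this

theorem odd_conj (g : G) : oddPartners D (g * a * g⁻¹) = (fun t => g * t * g⁻¹) '' oddPartners D a := by
  ext x
  simp only [Set.mem_image, od_iff]
  constructor
  · rintro ⟨h1, h2⟩
    refine ⟨g⁻¹ * x * g⁻¹⁻¹, ⟨hD.conj_mem x h1 _, ?_⟩, by group⟩
    have := h2.conj g⁻¹
    rwa [show g⁻¹ * (g * a * g⁻¹) * g⁻¹⁻¹ = a by group] at this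
  · rintro ⟨y, ⟨h1, h2⟩, rfl⟩
    exact ⟨hD.conj_mem y h1 g, h2.conj g⟩

theorem ind {P : G → Prop} (h1 : ∀ d ∈ D, P d) (h0 : P 1) (h2 : ∀ x y, P x → P y → P (x * y)) (g : G) : P g := by
  have hg : g ∈ closure D := hD.generates ▸ mem_top g
  induction hg using closure_induction'' with
  | one => exact h0
  | mem x hx => exact h1 x hx
  | inv_mem x hx => rw [iv hD hx]; exact h1 x hx
  | mul x y _ _ hx hy => exact h2 x y hx hy

/-- a set of root involutions closed under mutual conjugation without odd pair generates a 2-group -/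
theorem isPGroup_closure [Finite G] {T : Set G} (hT : T ⊆ D) (h1 : ∀ s ∈ T, ∀ t ∈ T, s * t * s ∈ T)
    (h2 : ∀ s ∈ T, ∀ t ∈ T, ¬ Od s t) : IsPGroup 2 (closure T) := by
  have h3 : ∀ g ∈ closure T, ∀ t ∈ T, g * t * g⁻¹ ∈ T := by
    intro g hg
    induction hg using closure_induction'' with
    | one => simp
    | mem x hx => intro t ht; rw [iv hD (hT hx)]; exact h1 x hx t ht
    | inv_mem x hx => intro t ht; rw [inv_inv, iv hD (hT hx)]; exact h1 x hx t ht
    | mul x y _ _ hx hy =>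
      intro t ht
      rw [show x * y * t * (x * y)⁻¹ = x * (y * t * y⁻¹) * x⁻¹ by group]
      exact hx _ (hy t ht)
  refine (H24.isPGroup_pCoreOf 2 (closure T)).to_le ((closure_le _).2 fun t ht => ⟨⟨t, subset_closure ht⟩, ?_, rfl⟩)
  by_contra h4
  obtain ⟨y, y1, y2, y3⟩ := H8.exists_odd_inverted (Subtype.ext (sq hD (hT ht))) h4
  obtain ⟨m, hm⟩ := H11.exists_sq_eq_of_odd y2
  have e : t * (((y ^ m : closure T) : G)⁻¹ * t * ((y ^ m : closure T) : G)⁻¹⁻¹) = y := by
    have e1 : t * ((y ^ m : closure T) : G)⁻¹ * t⁻¹ = (y ^ m : closure T) := by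
      have := congrArg Subtype.val y3
      simp only [coe_mul, coe_inv] at this
      rw [coe_pow, ← inv_pow, ← conj_pow, ← conj_inv, this, inv_inv]
    rw [iv hD (hT ht)] at e1
    rw [inv_inv, ← mul_assoc, ← mul_assoc, e1, ← coe_mul, ← pow_two, hm]
  refine h2 t ht _ (h3 _ (inv_mem (y ^ m).2) t ht) ⟨fun e2 => y1 (Subtype.ext ?_), ?_⟩
  · rw [← e, ← e2, sq hD (hT ht)]; rfl
  · rwa [e, orderOf_coe]

end basic

end Cfsg.Agent.H23.RI
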