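import Cfsg.Agent.H23.RI1

/-!
# Root involutions: classes
-/

set_option autoImplicit false

namespace Cfsg.Agent.H23.RI

open Subgroup
open scoped commutatorElement

variable {G : Type*} [Group G] {D : Set G} {a b c d e f g u v w x y z : G}

/-- `D` is a single conjugacy class -/
def Cl (D : Set G) : Prop := ∀ a ∈ D, ∀ b ∈ D, ∃ g : G, b = g * a * g⁻¹

theorem adj_iff : OddAdj D a b ↔ a ∈ D ∧ b ∈ D ∧ Od a b := Iff.rfl

variable (hD : IsRootInvolutionSet D)
include hD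

theorem cl_of_conn (hc : IsConnectedSet (OddAdj D) D) : Cl D := by
  intro a ha b hb
  have := hc a ha b hb
  clear hb
  induction this with
  | refl => exact ⟨1, by simp⟩
  | tail _ h ih =>
    obtain ⟨g, rfl⟩ := ih
    obtain ⟨k, hm⟩ : ∃ k, k * (g * a * g⁻¹) * k⁻¹ = _ := ⟨_, (Od.exists_conj hD h.1 h.2.1 h.2.2).choose_spec⟩
    exact ⟨k * g, hm.symm.trans (by group)⟩

theorem odd_cj (hx : x ∈ D) (h : y ∈ oddPartners D a) : x * y * x ∈ oddPartners D (x * a * x) := by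
  have := (od_iff.1 h).2.conj x
  rw [iv hD hx] at this
  exact od_iff.2 ⟨cj hD h.1 hx, this⟩

theorem odd_cj_eq (hx : x ∈ D) (h : oddPartners D a = oddPartners D b) :
    oddPartners D (x * a * x) = oddPartners D (x * b * x) := by
  have h1 := odd_conj hD (a := a) x
  have h2 := odd_conj hD (a := b) x
  rw [iv hD hx] at h1 h2
  rw [h1, h2, h]

theorem cj_of_co (hx : x ∈ D) (h : a * x = x * a) : x * a * x = a := by rw [← h, mul_assoc, sq hD hx, mul_one]

theorem comm_eq_cm (ha : a ∈ D) (hb : b ∈ D) : ⁅a, b⁆ = cm a b := by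
  rw [commutatorElement_def, iv hD ha, iv hD hb, cm]; simp only [mul_assoc]

variable [Finite G] (hc : Cl D)
include hc

theorem odd_eq_of_subset (ha : a ∈ D) (hb : b ∈ D) (h : oddPartners D a ⊆ oddPartners D b) :
    oddPartners D a = oddPartners D b := by
  obtain ⟨g, rfl⟩ := hc a ha b hb
  refine Set.eq_of_subset_of_ncard_le h (le_of_eq ?_)
  rw [odd_conj hD]
  exact Set.ncard_image_of_injective _ (MulAut.conj g).injective

theorem exists_od (ha : a ∈ D) (hb : b ∈ D) (h : oddPartners D a ≠ oddPartners D b) :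
    ∃ x ∈ D, Od a x ∧ ¬ Od b x := by
  by_contra! h1
  exact h (odd_eq_of_subset hD hc ha hb fun x hx => od_iff.2 ⟨hx.1, h1 x hx.1 (od_iff.1 hx).2⟩)

theorem odd_cm_eq (he : e ∈ D) (hf : f ∈ D) (h : Fo e f) (h1 : oddPartners D (f * e * f) = oddPartners D e) :
    oddPartners D (cm e f) = oddPartners D e := by
  have h2 := (h.xl hD he hf).symm
  refine odd_eq_of_subset hD hc h2.l he fun y hy => ?_
  rcases h2.of hD hy.1 (od_iff.1 hy).2 with h3 | h3
  · exact od_iff.2 ⟨hy.1, h3⟩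
  · have := h2.od_mul hD hy.1 (od_iff.1 hy).2 h3
    rw [h2.co, l_cm hD he] at this
    exact h1 ▸ od_iff.2 ⟨hy.1, this⟩

theorem co_of_odd_eq (he : e ∈ D) (hf : f ∈ D) (h : oddPartners D e = oddPartners D f) : e * f = f * e := by
  haveI : Fact (Nat.Prime 2) := ⟨Nat.prime_two⟩
  by_contra h0
  let T := {t | t ∈ D ∧ oddPartners D t = oddPartners D e}
  have h1 : ∀ s ∈ T, ∀ t ∈ T, s * t * s ∈ T := fun s hs t ht => ⟨cj hD ht.1 hs.1, by
    rw [odd_cj_eq hD hs.1 (ht.2.trans hs.2.symm), sq hD hs.1, one_mul, hs.2]⟩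
  have h2 : ∀ s ∈ T, ∀ t ∈ T, ¬ Od s t := fun s hs t ht ho =>
    (od_iff.1 ((hs.2.trans ht.2.symm) ▸ od_iff.2 ⟨ht.1, ho⟩ : t ∈ oddPartners D t)).2.1 rfl
  have hp := isPGroup_closure hD (T := T) (fun _ h => h.1) h1 h2
  have heT : e ∈ T := ⟨he, rfl⟩
  have hfT : f ∈ T := ⟨hf, h.symm⟩
  have h3 : Fo e f := ((tri hD he hf).resolve_left h0).resolve_left (h2 e heT f hfT)
  have h4 := odd_cm_eq hD hc he hf h3 (h1 f hfT e heT).2
  have := H24.eq_bot_of_le_commutator hp hp le_normalizer ((closure_le _).2 fun t ht => by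
    obtain ⟨g, rfl⟩ := hc _ (h3.mem hD he hf) t ht.1
    have h5 : ∀ s ∈ T, g * s * g⁻¹ ∈ T := fun s hs => ⟨hD.conj_mem s hs.1 g, by
      rw [← ht.2, odd_conj hD, odd_conj hD, hs.2, h4]⟩
    rw [← cm_conj, ← comm_eq_cm hD (h5 e heT).1 (h5 f hfT).1]
    exact commutator_mem_commutator (subset_closure (h5 e heT)) (subset_closure (h5 f hfT)))
  exact n1 hD he (mem_bot.1 (this ▸ subset_closure heT))

theorem star (h : XX D a b) (h1 : oddPartners D a ≠ oddPartners D b) : ∃ c ∈ D, Fo c a ∧ cm c a = b := by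
  obtain ⟨x, hx, h2, h3⟩ := exists_od hD hc h.l h.r h1
  obtain ⟨c, h4, h5⟩ := exists_cm hD h hx h2 ((h.of hD hx h2).resolve_left h3)
  exact ⟨c, h4.r, h5⟩

theorem co_of_odd_eq' (hd : d ∈ D) (he : e ∈ D) (hf : f ∈ D) (h : oddPartners D d = oddPartners D e)
    (h1 : f * d = d * f) : f * e = e * f := by
  rcases tri hD he hf with h2 | h2 | h2
  · exact h2.symm
  · exact ((od_iff.1 (h ▸ od_iff.2 ⟨hf, h2⟩ : f ∈ oddPartners D d)).2.not_co hD hd hf h1.symm).elim
  exfalso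
  have h3 : oddPartners D (f * e * f) = oddPartners D e := by
    rw [← odd_cj_eq hD hf h, cj_of_co hD hf h1.symm, h]
  have h4 := odd_cm_eq hD hc he hf h2 h3
  have h5 := (h2.xr hD he hf).symm
  by_cases h6 : oddPartners D (cm e f) = oddPartners D f
  · exact h2.not_co hD he hf (co_of_odd_eq hD hc he hf (h4.symm.trans h6))
  obtain ⟨y, hy, h7, h8⟩ := exists_od hD hc h5.l hf h6
  have h9 := (h5.of hD hy h7).resolve_left h8
  obtain ⟨g, g1, g2, g3⟩ := exists_cm hD h5 hy h7 h9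
  have hye : Od e y := (od_iff.1 (h4 ▸ od_iff.2 ⟨hy, h7⟩ : y ∈ oddPartners D e)).2
  have hge : Fo g e := (g1.of hD he hye.symm).resolve_left fun h10 =>
    (od_iff.1 (h4.symm ▸ od_iff.2 ⟨g1.r, h10.symm⟩ : g ∈ oddPartners D (cm e f))).2.not_fo g2.symm
  have e1 : g * cm e f * g = cm e f * f := by
    rw [← l_cm hD h5.l g, cm_symm hD g1.r h5.l g2, g3]
  have e2 := odd_cj_eq hD g1.r h4
  have e3 : e * (g * e * g) * e = g * e * g := by
    rw [← l_cm hD he g]
    exact cj_of_co hD he ((hge.symm.xl hD he g1.r).third hD).co.symm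
  have e4 := odd_cj_eq hD he e2
  rw [e3, ← e2, e1, cm_r hD hf, show e * (e * f * e) * e = f by simp only [mul_assoc, mm hD he, sq hD he, mul_one],
    ← cm_r hD hf] at e4
  exact h8 (od_iff.1 (e4 ▸ od_iff.2 ⟨hy, h5.od_mul hD hy h7 h9⟩ : y ∈ oddPartners D f)).2

omit [Finite G] hc in
theorem fo_of_co_eq (hd : d ∈ D) (he : e ∈ D) (hx : x ∈ D) (h : ∀ f ∈ D, f * d = d * f ↔ f * e = e * f)
    (h1 : Fo d x) : Fo e x := by
  rcases tri hD he hx with h2 | h2 | h2
  · exact (h1.not_co hD hd hx ((h x hx).2 h2.symm).symm).elim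
  · exact ((h1.xr hD hd hx).not_co hD he h2.symm ((h _ (h1.mem hD hd hx)).1 (h1.xl hD hd hx).co.symm)).elim
  · exact h2

theorem same_iff (hd : d ∈ D) : e ∈ sameCommutingClass D d ↔ e ∈ D ∧ oddPartners D d = oddPartners D e := by
  refine and_congr_right fun he => ⟨fun h => ?_, fun h => Set.ext fun f => and_congr_right fun hf =>
    ⟨co_of_odd_eq' hD hc hd he hf h, co_of_odd_eq' hD hc he hd hf h.symm⟩⟩
  have h1 : ∀ f ∈ D, f * d = d * f ↔ f * e = e * f := fun f hf =>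
    ⟨fun h2 => (h ▸ (⟨hf, h2⟩ : f ∈ commutingMembers D d) : f ∈ commutingMembers D e).2,
      fun h2 => (h.symm ▸ (⟨hf, h2⟩ : f ∈ commutingMembers D e) : f ∈ commutingMembers D d).2⟩
  refine odd_eq_of_subset hD hc hd he fun x hx => od_iff.2 ⟨hx.1, ?_⟩
  rcases tri hD he hx.1 with h2 | h2 | h2
  · exact ((od_iff.1 hx).2.not_co hD hd hx.1 ((h1 x hx.1).2 h2.symm).symm).elim
  · exact h2
  · exact ((od_iff.1 hx).2.not_fo (fo_of_co_eq hD he hd hx.1 (fun f hf => (h1 f hf).symm) h2)).elim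

theorem odd_ne_of_fo (ha : a ∈ D) (hb : b ∈ D) (hx : x ∈ D) (h1 : x * a = a * x) (h2 : ¬ x * b = b * x) :
    oddPartners D a ≠ oddPartners D b := fun h => h2 (co_of_odd_eq' hD hc ha hb hx h h1)

theorem exists_three (h : XX D a b) (h1 : oddPartners D a ≠ oddPartners D b) :
    ∃ x ∈ D, Fo b x ∧ orderOf (a * x) = 3 ∧ cm (cm b x) a = b := by
  obtain ⟨c, c1, c2, c3⟩ := star hD hc h h1
  have h2 : XX D b c := (c3 ▸ c2.xl hD c1 h.l).symm
  obtain ⟨x, hx, x1, x2⟩ := star hD hc h2 (odd_ne_of_fo hD hc h.r c1 h.l h.co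
    fun e => c2.not_co hD c1 h.l e.symm)
  have x3 : cm b x = c := by rw [cm_symm hD hx h.r x1, x2]
  refine ⟨x, hx, x1.symm, ?_, by rw [x3, c3]⟩
  have e1 : x * b = b * (c * x) := by
    rw [← x3, ← mul_assoc, l_cm hD h.r, mul_assoc, sq hD hx, mul_one]
  have e2 : x * c = c * x := (x3 ▸ x1.symm.xr hD h.r hx).co
  have e3 : a * c = c * (b * a) := by
    rw [← c3, ← mul_assoc, l_cm hD c1, mul_assoc, sq hD h.l, mul_one]
  have e4 : a * x * b = c * (a * x) := by
    rw [mul_assoc, e1, cl h.co, ← mul_assoc a, e3]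
    simp only [mul_assoc]
    rw [cl h2.co, mm hD h.r]
  have e5 : a * x * c = b * c * (a * x) := by
    rw [mul_assoc, e2, ← mul_assoc a, e3, h2.co]
    simp only [mul_assoc]
  have e6 : (a * x) ^ 3 * b = b * (a * x) ^ 3 := by
    generalize a * x = r at e4 e5
    have e4' : ∀ y, r * (b * y) = c * (r * y) := fun y => by rw [← mul_assoc, e4, mul_assoc]
    have e5' : ∀ y, r * (c * y) = b * (c * (r * y)) := fun y => by rw [← mul_assoc, e5]; simp only [mul_assoc]
    simp only [pow_succ, pow_zero, one_mul, mul_assoc, e4, e4', e5']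
    rw [← cl h2.co, mm hD c1]
  have e7 : ¬ (a * x) ^ 2 * b = b * (a * x) ^ 2 := fun e => by
    rw [pow_two, mul_assoc, e4, ← mul_assoc, e5, mul_assoc, mul_assoc, mul_right_inj] at e
    exact n1 hD c1 (by simpa using e)
  have ho : Od a x := by
    by_contra h3
    have h4 := pow_four hD h.l hx h3
    have h5 : Commute ((a * x) ^ 3) b := e6
    have := h5.pow_left 2
    rw [← pow_mul, show 3 * 2 = 4 + 2 from rfl, pow_add, h4, one_mul] at this
    exact e7 this
  haveI : Fact (Nat.Prime 3) := ⟨Nat.prime_three⟩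
  refine orderOf_eq_prime ?_ (mul_ne_one hD h.l ho.1)
  by_contra h3
  have h5 : x * a * x * a * x = a * (a * x) ^ 3 * a * a := by
    simp only [pow_succ, pow_zero, one_mul, mul_assoc, mm hD h.l, sq hD h.l, mul_one]
  have h6 : x * a * x * a * x ∈ D := by
    have := cj hD (cj hD hx h.l) hx
    simpa only [mul_assoc] using this
  rw [h5, mul_assoc, sq hD h.l, mul_one] at h6
  refine h.not_co hD h6 ⟨fun e => h3 (by simpa using e), ?_⟩ ?_
  · rw [mm hD h.l]; exact H11.odd_orderOf_pow ho.2 3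
  · rw [← mul_assoc, ← h.co, mul_assoc, ← e6, mul_assoc]

end Cfsg.Agent.H23.RI
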