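import Cfsg.Agent.H23.RI2
import Cfsg.Prelude.Def_QuasithinSetup

/-!
# Root involutions: components of the odd graph, normal subgroups
-/

set_option autoImplicit false

namespace Cfsg.Agent.H23.RI

open Subgroup
open scoped commutatorElement

variable {G : Type*} [Group G] {D : Set G} {a b c d e f g u v w x y z : G}

theorem iso_iff : IsIsolatedElem (OddAdj D) D w ↔ w ∈ D ∧ ∀ x ∈ D, ¬ Od w x :=
  and_congr_right fun hw => ⟨fun h x hx ho => (h x).1 ⟨hw, hx, ho⟩,
    fun h x => ⟨fun h' => h x h'.2.1 h'.2.2, fun h' => h x h'.1 (Od.symm h'.2.2)⟩⟩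

theorem path_symm (h : Relation.ReflTransGen (OddAdj D) a b) : Relation.ReflTransGen (OddAdj D) b a :=
  by
  induction h with
  | refl => exact .refl
  | tail _ h ih => exact .head ⟨h.2.1, h.1, Od.symm h.2.2⟩ ih

theorem exists_od_of_path (h : Relation.ReflTransGen (OddAdj D) a b) (hne : b ≠ a) : ∃ x ∈ D, Od a x := by
  rcases h.cases_head with e | ⟨x, h1, -⟩
  · exact absurd e.symm hne
  · exact ⟨x, h1.2.1, h1.2.2⟩

theorem eq_one_of_odd_of_isPGroup {P : Subgroup G} (hP : IsPGroup 2 P) (hy : y ∈ P) (h : Odd (orderOf y)) :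
    y = 1 := by
  obtain ⟨k, hk⟩ := H24.isPGroup_iff.1 hP _ hy
  exact orderOf_eq_one_iff.1 (Nat.Coprime.eq_one_of_dvd ((Nat.coprime_two_right.2 h).pow_right k)
    (orderOf_dvd_of_pow_eq_one hk))

variable (hD : IsRootInvolutionSet D)
include hD

theorem XX.path (h : XX D a b) (hx : x ∈ D) (ho : Od a x) (hy : y ∈ D) (ho' : Od b y) :
    Relation.ReflTransGen (OddAdj D) a b := by
  have p1 : Relation.ReflTransGen (OddAdj D) a x := .single ⟨h.l, hx, ho⟩
  rcases h.of hD hx ho with h1 | h1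
  · exact p1.tail ⟨hx, h.r, h1.symm⟩
  rcases h.symm.of hD hy ho' with h2 | h2
  · exact (Relation.ReflTransGen.single ⟨h.l, hy, h2⟩).tail ⟨hy, h.r, ho'.symm⟩
  exact ((p1.tail ⟨hx, h.mul, (h.od_mul hD hx ho h1).symm⟩).tail
    ⟨h.mul, hy, h.co ▸ h.symm.od_mul hD hy ho' h2⟩).tail ⟨hy, h.r, ho'.symm⟩

theorem not_od_of_mem {N : Subgroup G} [hN : N.Normal] (hp : IsPGroup 2 N) (hd : d ∈ D) (hdN : d ∈ N) (hx : x ∈ D) :
    ¬ Od d x := fun ho => by
  have h1 := ho.self_conj hD hd hx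
  refine mul_ne_one hD hd h1.1 (eq_one_of_odd_of_isPGroup hp (mul_mem hdN ?_) h1.2)
  simpa only [iv hD hx] using hN.conj_mem d hdN x

theorem path_conj_root (h0 : ∀ a ∈ D, ∃ x ∈ D, Od a x) (ha : a ∈ D) (hd : d ∈ D) :
    Relation.ReflTransGen (OddAdj D) a (d * a * d) := by
  rcases tri hD ha hd with h | h | h
  · rw [cj_of_co hD hd h]
  · exact .single ⟨ha, cj hD ha hd, h.self_conj hD ha hd⟩
  · obtain ⟨x, hx, ho⟩ := h0 a ha
    have h1 := (h.xl hD ha hd).third hD
    rw [l_cm hD ha] at h1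
    obtain ⟨y, hy, ho'⟩ := h0 _ h1.r
    exact h1.path hD hx ho hy ho'

theorem conn_of_cl (hc : Cl D) (ha : a ∈ D) (hx : x ∈ D) (ho : Od a x) : IsConnectedSet (OddAdj D) D := by
  have h0 : ∀ b ∈ D, ∃ y ∈ D, Od b y := fun b hb => by
    obtain ⟨g, rfl⟩ := hc a ha b hb
    exact ⟨_, hD.conj_mem x hx g, ho.conj g⟩
  intro b hb c hc'
  obtain ⟨g, rfl⟩ := hc b hb c hc'
  clear hc'
  revert b
  refine ind hD (P := fun g => ∀ b ∈ D, Relation.ReflTransGen (OddAdj D) b (g * b * g⁻¹)) (fun d hd b hb => ?_)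
    (fun b _ => by simpa using Relation.ReflTransGen.refl) (fun g h h1 h2 b hb => ?_) g
  · rw [iv hD hd]; exact path_conj_root hD h0 hb hd
  · rw [show g * h * b * (g * h)⁻¹ = g * (h * b * h⁻¹) * g⁻¹ by group]
    exact (h2 b hb).trans (h1 _ (hD.conj_mem b hb h))

theorem image_root {H : Type*} [Group H] (φ : G →* H) (hφ : Function.Surjective φ) (h1 : ∀ d ∈ D, φ d ≠ 1) :
    IsRootInvolutionSet (φ '' D) := by
  refine ⟨?_, ?_, ?_, ?_⟩
  · rintro _ ⟨d, hd, rfl⟩
    exact H11.orderOf_two_of (h1 d hd) (by rw [← map_mul, sq hD hd, map_one])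
  · rw [← MonoidHom.map_closure, hD.generates, map_top_of_surjective φ hφ]
  · rintro _ ⟨d, hd, rfl⟩ g
    obtain ⟨g, rfl⟩ := hφ g
    exact ⟨_, hD.conj_mem d hd g, by simp⟩
  · rintro _ ⟨a, ha, rfl⟩ _ ⟨b, hb, rfl⟩
    rw [← map_mul, ← map_mul]
    rcases tri hD ha hb with h | h | h
    · exact Or.inl (by rw [h])
    · exact Or.inr (Or.inl (h.2.of_dvd_nat (orderOf_map_dvd φ _)))
    · refine Or.inr (Or.inr ⟨four_iff.2 ⟨?_, ?_⟩, _, h.mem hD ha hb, by rw [cm, map_mul, pow_two]⟩)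
      · rw [← map_mul]; exact h1 _ (h.mem hD ha hb)
      · rw [← map_mul, ← map_mul, (four_iff.1 h).2, map_one]

omit hD in
theorem Cl.image {H : Type*} [Group H] (hc : Cl D) (φ : G →* H) : Cl (φ '' D) := by
  rintro _ ⟨a, ha, rfl⟩ _ ⟨b, hb, rfl⟩
  obtain ⟨g, rfl⟩ := hc a ha b hb
  exact ⟨φ g, by simp⟩

theorem eq_top_of_mem (hc : Cl D) {N : Subgroup G} [hN : N.Normal] (hd : d ∈ D) (h : d ∈ N) : N = ⊤ := by
  rw [eq_top_iff, ← hD.generates, closure_le]
  intro e he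
  obtain ⟨g, rfl⟩ := hc d hd e he
  exact hN.conj_mem d h g

/-- normal subgroups are central modulo the 2-core or everything -/
theorem normal_cases [Finite G] (hc : Cl D) (h : XX D a b) (N : Subgroup G) [hN : N.Normal] :
    N = ⊤ ∨ ∀ n ∈ N, ∀ g, ⁅n, g⁆ ∈ pCore 2 G := by
  by_cases h0 : ∃ d ∈ D, d ∈ N
  · obtain ⟨d, hd, h1⟩ := h0
    exact Or.inl (eq_top_of_mem hD hc hd h1)
  push Not at h0
  have m : ∀ {x y : G}, x * y ∈ N ↔ (x : G ⧸ N) * y = 1 := by
    intro x y; rw [← QuotientGroup.mk_mul, QuotientGroup.eq_one_iff]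
  have hq : ∀ d ∈ D, (d : G ⧸ N) * d = 1 := fun d hd => by rw [← QuotientGroup.mk_mul, sq hD hd]; rfl
  let T := {t | t ∈ D ∧ (t : G ⧸ N) = a}
  have h2 : ∀ s ∈ T, ∀ t ∈ T, ¬ Od s t := by
    intro s hs t ht ho
    obtain ⟨g, hg⟩ := hc a h.l s hs.1
    have h3 := h.conj hD g
    rw [← hg] at h3
    generalize g * b * g⁻¹ = b' at h3
    have h4 : ((cm b' t : G) : G ⧸ N) = 1 := by
      have := congrArg (QuotientGroup.mk (s := N)) ((cm_eq_one_iff hD h3.r h3.l).2 h3.co.symm)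
      simpa only [cm, QuotientGroup.mk_mul, ht.2, hs.2, QuotientGroup.mk_one] using this
    rcases h3.of hD ht.1 ho with h5 | h5
    · have h6 : ((b' * t : G) : G ⧸ N) = 1 := H11.eq_one_of_odd_of_sq
        (h5.2.of_dvd_nat (orderOf_map_dvd (QuotientGroup.mk' N) _)) h4
      refine h0 _ h3.symm.mul (m.2 ?_)
      rw [hs.2, ← ht.2]
      exact h6
    · exact h0 _ (h5.mem hD h3.r ht.1) ((QuotientGroup.eq_one_iff _).1 h4)
  have h1 : ∀ s ∈ T, ∀ t ∈ T, s * t * s ∈ T := fun s hs t ht => ⟨cj hD ht.1 hs.1, by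
    simp only [QuotientGroup.mk_mul, hs.2, ht.2, hq a h.l, one_mul]⟩
  have hp := isPGroup_closure hD (T := T) (fun _ h => h.1) h1 h2
  have h3 : ∀ n ∈ N, ∀ t ∈ T, n * t * n⁻¹ ∈ T := fun n hn t ht => ⟨hD.conj_mem t ht.1 n, by
    simp only [QuotientGroup.mk_mul, QuotientGroup.mk_inv, (QuotientGroup.eq_one_iff n).2 hn, ht.2, one_mul,
      inv_one, mul_one]⟩
  have h4 : N ≤ normalizer (closure T : Subgroup G) := fun n hn => H24.mem_normalizer_of_cj_le (by
    rw [H24.cj_closure, closure_le]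
    rintro _ ⟨t, ht, rfl⟩
    exact subset_closure (h3 n hn t ht))
  have h5 : closure T ⊓ N ≤ pCore 2 G := (H24.le_pCoreOf inf_le_right (hp.to_le inf_le_left)
    (H24.le_normalizer_inf h4 le_normalizer)).trans (H24.pCoreOf_le_pCore N)
  right
  let K := (N.map (QuotientGroup.mk' (pCore 2 G)))
  haveI : K.Normal := hN.map _ (QuotientGroup.mk'_surjective _)
  have h6 : (centralizer (K : Set _)).comap (QuotientGroup.mk' (pCore 2 G)) = ⊤ := by
    refine eq_top_of_mem hD hc h.l ?_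
    rintro _ ⟨n, hn, rfl⟩
    rw [← commutatorElement_eq_one_iff_mul_comm, ← map_commutatorElement, QuotientGroup.mk'_apply,
      QuotientGroup.eq_one_iff]
    refine h5 (mem_inf.2 ⟨mul_mem (subset_closure (h3 n hn a ⟨h.l, rfl⟩)) (inv_mem (subset_closure ⟨h.l, rfl⟩)), ?_⟩)
    rw [commutatorElement_def, mul_assoc, mul_assoc, ← mul_assoc a]
    exact mul_mem hn (hN.conj_mem _ (inv_mem hn) a)
  intro n hn g
  have := (h6 ▸ mem_top g : g ∈ (centralizer (K : Set _)).comap (QuotientGroup.mk' (pCore 2 G))) _ ⟨n, hn, rfl⟩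
  rwa [← commutatorElement_eq_one_iff_mul_comm, ← map_commutatorElement, QuotientGroup.mk'_apply,
      QuotientGroup.eq_one_iff] at this

theorem le_twoZCore [Finite G] (hc : Cl D) (h : XX D a b) (N : Subgroup G) [N.Normal] (hN : N ≠ ⊤) :
    N ≤ twoZCore G := fun n hn => by
  refine mem_center_iff.2 fun g => ?_
  obtain ⟨g, rfl⟩ := QuotientGroup.mk'_surjective _ g
  rw [eq_comm, ← commutatorElement_eq_one_iff_mul_comm, ← map_commutatorElement, QuotientGroup.mk'_apply,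
    QuotientGroup.eq_one_iff]
  exact (normal_cases hD hc h N).resolve_left hN n hn g

theorem perfect (hc : Cl D) (h : XX D a b) : commutator G = ⊤ := by
  refine eq_top_of_mem hD hc h.l ?_
  obtain ⟨g, hg⟩ := hc _ h.r _ h.mul
  rw [eq_mul_inv_of_mul_eq hg]
  exact commutator_mem_commutator (mem_top g) (mem_top b)

theorem not_solvable (hc : Cl D) (h : XX D a b) : ¬ Group.IsSolvable G := fun hs => by
  haveI : Nontrivial G := nontrivial_of_ne _ _ (n1 hD h.l)
  exact (Group.IsSolvable.commutator_lt_top_of_nontrivial G).ne (perfect hD hc h)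

omit hD in
theorem solvable_twoZCore [Finite G] : Group.IsSolvable (twoZCore G) := by
  haveI : Fact (Nat.Prime 2) := ⟨Nat.prime_two⟩
  haveI := H1.isSolvable_of_isPGroup (H24.isPGroup_pCore 2 G)
  haveI : Group.IsSolvable (center (G ⧸ pCore 2 G)) :=
    Group.isSolvable_of_comm fun a b => Subtype.ext (mem_center_iff.1 b.2 a)
  let f := (QuotientGroup.mk' (pCore 2 G)).subgroupComap (center _)
  refine Group.isSolvable_of_ker_le_range (inclusion (H := pCore 2 G) fun x hx => ?_) f fun x hx => ?_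
  · rw [twoZCore, mem_comap, QuotientGroup.mk'_apply, (QuotientGroup.eq_one_iff x).2 hx]
    exact one_mem _
  · exact ⟨⟨x, (QuotientGroup.eq_one_iff _).1 (congrArg Subtype.val hx)⟩, rfl⟩

theorem twoZCore_ne_top [Finite G] (hc : Cl D) (h : XX D a b) : twoZCore G ≠ ⊤ := fun e => by
  haveI := solvable_twoZCore (G := G)
  rw [e] at this
  exact not_solvable hD hc h (Group.isSolvable_of_surjective (f := (⊤ : Subgroup G).subtype) fun x => ⟨⟨x, trivial⟩, rfl⟩)

theorem simple_quot [Finite G] (hc : Cl D) (h : XX D a b) : IsSimpleGroup (G ⧸ twoZCore G) := by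
  haveI := QuotientGroup.nontrivial_iff.2 (twoZCore_ne_top hD hc h)
  refine ⟨fun N hN => ?_⟩
  haveI := hN.comap (QuotientGroup.mk' (twoZCore G))
  by_cases e : N.comap (QuotientGroup.mk' (twoZCore G)) = ⊤
  · right
    rw [← map_comap_eq_self_of_surjective (QuotientGroup.mk'_surjective _) N, e]
    exact map_top_of_surjective _ (QuotientGroup.mk'_surjective _)
  · left
    rw [← map_comap_eq_self_of_surjective (QuotientGroup.mk'_surjective _) N, Subgroup.map_eq_bot_iff, QuotientGroup.ker_mk']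
    exact le_twoZCore hD hc h _ e

theorem xx_of_nonempty (h : (D ∩ commutingProducts D).Nonempty) : ∃ a b, XX D a b := by
  obtain ⟨_, h1, a, ha, b, hb, h2, h3, rfl⟩ := h
  exact ⟨a, b, ha, hb, fun e => h3 (by rw [← e, sq hD ha]), h2, h1⟩

end Cfsg.Agent.H23.RI
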