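import Cfsg.Agent.H29.Root3
import Cfsg.Agent.H29.SL2

/-!
# Root subgroups from systems of square-zero elements
-/

set_option autoImplicit false

namespace Cfsg.Agent.H23.RS

open Subgroup Cfsg.Agent.H29
open scoped commutatorElement MatrixGroups

variable (k : Type*) [Field k] {R : Type*} [Ring R] [Algebra k R] {G : Type*} [Group G]

/-- a conjugation invariant system of square-zero elements -/
structure NilSys (ρ : G →* R) (𝒩 : Set R) : Prop where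
  inj : Function.Injective ρ
  ne : ∀ N ∈ 𝒩, N ≠ 0
  sq : ∀ N ∈ 𝒩, N * N = 0
  mem : ∀ N ∈ 𝒩, ∀ c : k, ∃ g, ρ g = 1 + c • N
  conj : ∀ N ∈ 𝒩, ∀ g, ρ g * N * ρ g⁻¹ ∈ 𝒩
  tri : ∀ N ∈ 𝒩, ∀ M ∈ 𝒩, N * M = M * N ∨ (∃ l : k, l ≠ 0 ∧ N * M * N = l • N ∧ M * N * M = l • M) ∨
    (N * M * N = 0 ∧ M * N * M = 0 ∧ N * M - M * N ∈ 𝒩)

/-- the root group of `N` -/
def rt (ρ : G →* R) (N : R) : Subgroup G := closure {g | ∃ c : k, ρ g = 1 + c • N}

/-- the family of root groups -/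
def fam (ρ : G →* R) (𝒩 : Set R) : Set (Subgroup G) := {A | ∃ N ∈ 𝒩, A = rt k ρ N}

variable {k} {ρ : G →* R} {𝒩 : Set R} {N M : R} {g : G}

theorem inv_eq {x : R} (h : ρ g * x = 1) : ρ g⁻¹ = x := by
  rw [← mul_one (ρ g⁻¹), ← h, ← mul_assoc, ← map_mul, inv_mul_cancel, map_one, one_mul]

theorem one_add_mul (h : N * N = 0) (a b : k) : (1 + a • N) * (1 + b • N) = 1 + (a + b) • N := by
  simp only [mul_add, add_mul, smul_mul_assoc, mul_smul_comm, h, one_mul, mul_one, smul_zero, add_smul]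
  abel

theorem inv_rt (h : N * N = 0) {a : k} (hg : ρ g = 1 + a • N) : ρ g⁻¹ = 1 + (-a) • N :=
  inv_eq (by rw [hg, one_add_mul h, add_neg_cancel, zero_smul, add_zero])

theorem mem_rt (h : N * N = 0) : g ∈ rt k ρ N ↔ ∃ c : k, ρ g = 1 + c • N := by
  refine ⟨fun hg => ?_, fun hg => subset_closure hg⟩
  induction hg using closure_induction with
  | mem x hx => exact hx
  | one => exact ⟨0, by simp⟩
  | mul x y _ _ hx hy =>
    obtain ⟨a, ha⟩ := hx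
    obtain ⟨b, hb⟩ := hy
    exact ⟨a + b, by rw [map_mul, ha, hb, one_add_mul h]⟩
  | inv x _ hx =>
    obtain ⟨a, ha⟩ := hx
    exact ⟨-a, inv_rt h ha⟩

theorem rt_smul {c : k} (hc : c ≠ 0) (N : R) : rt k ρ (c • N) = rt k ρ N := by
  unfold rt
  congr 1
  ext g
  exact ⟨fun ⟨a, ha⟩ => ⟨a * c, by rw [ha, smul_smul]⟩,
    fun ⟨a, ha⟩ => ⟨a / c, by rw [ha, smul_smul, div_mul_cancel₀ _ hc]⟩⟩

theorem conj_one_add (g : G) (c : k) (N : R) : ρ g * (1 + c • N) * ρ g⁻¹ = 1 + c • (ρ g * N * ρ g⁻¹) := by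
  rw [mul_add, add_mul, mul_one, ← map_mul, mul_inv_cancel, map_one, mul_smul_comm, smul_mul_assoc]

theorem conj_sq (h : N * N = 0) (g : G) : ρ g * N * ρ g⁻¹ * (ρ g * N * ρ g⁻¹) = 0 := by
  rw [mul_assoc, ← mul_assoc (ρ g⁻¹), ← mul_assoc (ρ g⁻¹), ← map_mul, inv_mul_cancel, map_one, one_mul,
    ← mul_assoc, mul_assoc _ N N, h, mul_zero, zero_mul]

theorem rt_conj (h : N * N = 0) (g : G) : conjBy (rt k ρ N) g = rt k ρ (ρ g * N * ρ g⁻¹) := by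
  ext x
  rw [mem_conjBy, mem_rt h, mem_rt (conj_sq h g)]
  refine exists_congr fun c => ?_
  rw [← conj_one_add]
  constructor
  · intro e
    rw [← e, ← map_mul, ← map_mul]; congr 1; group
  · intro e
    rw [map_mul, map_mul, e, ← mul_assoc, ← mul_assoc, ← map_mul, inv_mul_cancel, map_one, one_mul, mul_assoc,
      ← map_mul, inv_mul_cancel, map_one, mul_one]

/-- the `SL₂` attached to a pair of matrix units -/
def slr (k : Type*) [Field k] [Algebra k R] {e f : R} (he : e * e = 0) (hf : f * f = 0) (h1 : e * f * e = e)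
    (h2 : f * e * f = f) : SL(2, k) →* R where
  toFun A := 1 + (A.1 0 0 - 1) • (e * f) + A.1 0 1 • e + A.1 1 0 • f + (A.1 1 1 - 1) • (f * e)
  map_one' := by simp
  map_mul' A B := by
    have a1 : ∀ x, e * (e * x) = 0 := fun x => by rw [← mul_assoc, he, zero_mul]
    have a2 : ∀ x, f * (f * x) = 0 := fun x => by rw [← mul_assoc, hf, zero_mul]
    have a3 : ∀ x, e * (f * (e * x)) = e * x := fun x => by rw [← mul_assoc, ← mul_assoc, h1]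
    have a4 : ∀ x, f * (e * (f * x)) = f * x := fun x => by rw [← mul_assoc, ← mul_assoc, h2]
    rw [mul_assoc] at h1 h2
    simp only [Matrix.SpecialLinearGroup.coe_mul, Matrix.mul_apply, Fin.sum_univ_two, mul_add, add_mul,
      smul_mul_assoc, mul_smul_comm, one_mul, mul_one, mul_assoc, a1, a2, a3, a4, h1, h2, he, hf, mul_zero,
      smul_zero]
    module

namespace NilSys

variable (h : NilSys k ρ 𝒩)
include h

theorem eq_one_iff (hN : N ∈ 𝒩) {c : k} (hg : ρ g = 1 + c • N) : g = 1 ↔ c = 0 := by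
  refine ⟨fun e => ?_, fun e => h.inj (by rw [hg, e, zero_smul, add_zero, map_one])⟩
  rw [e, map_one, left_eq_add] at hg
  exact (smul_eq_zero.1 hg).resolve_right (h.ne N hN)

theorem cm_of (hN : N ∈ 𝒩) (hM : M ∈ 𝒩) (e : N * M = M * N) : ⁅rt k ρ N, rt k ρ M⁆ = ⊥ := by
  refine comm_bot_iff.2 fun a ha b hb => h.inj ?_
  obtain ⟨c, hc⟩ := (mem_rt (h.sq N hN)).1 ha
  obtain ⟨d, hd⟩ := (mem_rt (h.sq M hM)).1 hb
  simp only [map_mul, hc, hd, mul_add, add_mul, smul_mul_assoc, mul_smul_comm, one_mul, mul_one, e]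
  module

theorem exists_sl (hN : N ∈ 𝒩) (hM : M ∈ 𝒩) {l : k} (hl : l ≠ 0) (h1 : N * M * N = l • N) (h2 : M * N * M = l • M) :
    ∃ φ : SL(2, k) →* G, Function.Injective φ ∧ (∀ t, ρ (φ (up t)) = 1 + t • N) ∧
      ∀ t, ρ (φ (lo t)) = 1 + (t / l) • M := by
  have hf : l⁻¹ • M * l⁻¹ • M = 0 := by rw [smul_mul_assoc, mul_smul_comm, h.sq M hM, smul_zero, smul_zero]
  have e1 : N * l⁻¹ • M * N = N := by rw [mul_smul_comm, smul_mul_assoc, h1, smul_smul, inv_mul_cancel₀ hl, one_smul]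
  have e2 : l⁻¹ • M * N * l⁻¹ • M = l⁻¹ • M := by
    rw [mul_smul_comm, smul_mul_assoc, smul_mul_assoc, h2, smul_smul l⁻¹ l, inv_mul_cancel₀ hl, one_smul]
  let ψ := slr k (h.sq N hN) hf e1 e2
  have u : ∀ t, ψ (up t) = 1 + t • N := fun t => by simp [ψ, slr, up_val]
  have v : ∀ t, ψ (lo t) = 1 + (t / l) • M := fun t => by simp [ψ, slr, lo_val, smul_smul, div_eq_mul_inv]
  let K : Subgroup SL(2, k) :=
    { carrier := {A | ∃ g, ρ g = ψ A}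
      one_mem' := ⟨1, by simp⟩
      mul_mem' := fun ⟨a, ha⟩ ⟨b, hb⟩ => ⟨a * b, by rw [map_mul, map_mul, ha, hb]⟩
      inv_mem' := fun ⟨a, ha⟩ => ⟨a⁻¹, inv_eq (by rw [ha, ← map_mul, mul_inv_cancel, map_one])⟩ }
  have hK : ∀ A, ∃ g, ρ g = ψ A := fun A => (show A ∈ K from (show ⊤ ≤ K by
    rw [← lower_sup_upper]
    refine sup_le (fun x hx => ?_) fun x hx => ?_
    · obtain ⟨t, rfl⟩ := mem_lower.1 hx
      exact (h.mem M hM _).imp fun g hg => hg.trans (v t).symm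
    · obtain ⟨t, rfl⟩ := mem_upper.1 hx
      exact (h.mem N hN _).imp fun g hg => hg.trans (u t).symm) trivial)
  choose φ hφ using hK
  refine ⟨MonoidHom.mk' φ fun a b => h.inj (by rw [map_mul, hφ, hφ, hφ, map_mul]),
    (injective_iff_map_eq_one _).2 fun A hA => ?_, fun t => (hφ _).trans (u t), fun t => (hφ _).trans (v t)⟩
  have h3 : ψ A = 1 := by rw [← hφ, show φ A = 1 from hA, map_one]
  generalize l⁻¹ • M = f at hf e1 e2 ψ h3
  have he := h.sq N hN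
  have h4 : (A.1 0 0 - 1) • (N * f) + A.1 0 1 • N + A.1 1 0 • f + (A.1 1 1 - 1) • (f * N) = 0 := by
    simp only [ψ, slr, MonoidHom.coe_mk, OneHom.coe_mk, add_assoc] at h3
    simpa only [add_assoc] using add_eq_left.1 h3
  have a1 : ∀ x, N * (N * x) = 0 := fun x => by rw [← mul_assoc, he, zero_mul]
  have a2 : ∀ x, f * (f * x) = 0 := fun x => by rw [← mul_assoc, hf, zero_mul]
  have a3 : ∀ x, N * (f * (N * x)) = N * x := fun x => by rw [← mul_assoc, ← mul_assoc, e1]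
  rw [mul_assoc] at e1
  have b1 := congrArg (fun x => N * f * x * N) h4
  have b2 := congrArg (fun x => N * f * x * (f * N)) h4
  have b3 := congrArg (fun x => N * x * N) h4
  have b4 := congrArg (fun x => N * x * (f * N)) h4
  simp only [mul_add, add_mul, smul_mul_assoc, mul_smul_comm, mul_assoc, a1, a2, a3, e1, he, mul_zero,
    smul_zero, zero_mul, add_zero, zero_add, smul_eq_zero, h.ne N hN, or_false, sub_eq_zero] at b1 b2 b3 b4
  ext i j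
  fin_cases i <;> fin_cases j <;> simp [b1, b2, b3, b4]

theorem psl_of (hN : N ∈ 𝒩) (hM : M ∈ 𝒩) {l : k} (hl : l ≠ 0) (h1 : N * M * N = l • N) (h2 : M * N * M = l • M) :
    IsPSL2PairOver k (rt k ρ N) (rt k ρ M) ∧ IsRankOnePair (rt k ρ N) (rt k ρ M) := by
  obtain ⟨φ, h3, h4, h5⟩ := h.exists_sl hN hM hl h1 h2
  have e1 : (upperUnipotentSL2 k).map φ = rt k ρ N := by
    ext x
    simp only [mem_map, mem_upper, mem_rt (h.sq N hN)]
    exact ⟨by rintro ⟨_, ⟨t, rfl⟩, rfl⟩; exact ⟨t, h4 t⟩,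
      fun ⟨t, ht⟩ => ⟨_, ⟨t, rfl⟩, h.inj (by rw [h4, ht])⟩⟩
  have e2 : (lowerUnipotentSL2 k).map φ = rt k ρ M := by
    ext x
    simp only [mem_map, mem_lower, mem_rt (h.sq M hM)]
    exact ⟨by rintro ⟨_, ⟨t, rfl⟩, rfl⟩; exact ⟨_, h5 t⟩,
      fun ⟨t, ht⟩ => ⟨_, ⟨t * l, rfl⟩, h.inj (by rw [h5, ht, mul_div_cancel_right₀ _ hl])⟩⟩
  refine ⟨⟨φ, ?_, by rw [(φ.ker_eq_bot_iff).2 h3]; exact bot_le, e1, e2⟩, ?_⟩
  · rw [← e1, ← e2, ← Subgroup.map_sup, sup_comm, lower_sup_upper, MonoidHom.range_eq_map]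
  · rw [← e1, ← e2]
    exact (r1_map φ (r1_symm sl2_r1)).resolve_left fun e => (r1_symm sl2_r1).ne (map_injective h3 e)

theorem comm_val (hN : N ∈ 𝒩) (hM : M ∈ 𝒩) (h1 : N * M * N = 0) (h2 : M * N * M = 0) {a b : G} {c d : k}
    (ha : ρ a = 1 + c • N) (hb : ρ b = 1 + d • M) : ρ (a * b * a⁻¹ * b⁻¹) = 1 + (c * d) • (N * M - M * N) := by
  have a1 : ∀ x, N * (N * x) = 0 := fun x => by rw [← mul_assoc, h.sq N hN, zero_mul]
  have a2 : ∀ x, M * (M * x) = 0 := fun x => by rw [← mul_assoc, h.sq M hM, zero_mul]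
  have a3 : ∀ x, N * (M * (N * x)) = 0 := fun x => by rw [← mul_assoc, ← mul_assoc, h1, zero_mul]
  have a4 : ∀ x, M * (N * (M * x)) = 0 := fun x => by rw [← mul_assoc, ← mul_assoc, h2, zero_mul]
  rw [mul_assoc] at h1 h2
  rw [map_mul, map_mul, map_mul, inv_rt (h.sq N hN) ha, inv_rt (h.sq M hM) hb, ha, hb]
  simp only [mul_add, add_mul, smul_mul_assoc, mul_smul_comm, one_mul, mul_one, mul_assoc, a1, a2, a3, a4, h1, h2,
    h.sq N hN, h.sq M hM, mul_zero, smul_zero, zero_mul]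
  module

theorem rc_of (hN : N ∈ 𝒩) (hM : M ∈ 𝒩) (h1 : N * M * N = 0) (h2 : M * N * M = 0) (h3 : N * M - M * N ∈ 𝒩) :
    RootCommutatorCase (fam k ρ 𝒩) (rt k ρ N) (rt k ρ M) := by
  have hle : ⁅rt k ρ N, rt k ρ M⁆ ≤ rt k ρ (N * M - M * N) := commutator_le.2 fun a ha b hb => by
    obtain ⟨c, hc⟩ := (mem_rt (h.sq N hN)).1 ha
    obtain ⟨d, hd⟩ := (mem_rt (h.sq M hM)).1 hb
    exact subset_closure ⟨_, h.comm_val hN hM h1 h2 hc hd⟩
  have k1 : ∀ a ∈ rt k ρ N, a ≠ 1 → rt k ρ (N * M - M * N) ≤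
      closure ((fun b : G => a * b * a⁻¹ * b⁻¹) '' (rt k ρ M : Set G)) := fun a ha a1 => closure_mono fun x hx => by
    obtain ⟨c, hc⟩ := (mem_rt (h.sq N hN)).1 ha
    obtain ⟨t, ht⟩ := hx
    obtain ⟨b, hb⟩ := h.mem M hM (t / c)
    exact ⟨b, subset_closure ⟨_, hb⟩, h.inj (by
      rw [h.comm_val hN hM h1 h2 hc hb, ht, mul_div_cancel₀ _ (mt (h.eq_one_iff hN hc).2 a1)])⟩
  have k2 : ∀ b ∈ rt k ρ M, b ≠ 1 → rt k ρ (N * M - M * N) ≤
      closure ((fun a : G => a * b * a⁻¹ * b⁻¹) '' (rt k ρ N : Set G)) := fun b hb b1 => closure_mono fun x hx => by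
    obtain ⟨c, hc⟩ := (mem_rt (h.sq M hM)).1 hb
    obtain ⟨t, ht⟩ := hx
    obtain ⟨a, ha⟩ := h.mem N hN (t / c)
    exact ⟨a, subset_closure ⟨_, ha⟩, h.inj (by
      rw [h.comm_val hN hM h1 h2 ha hc, ht, div_mul_cancel₀ _ (mt (h.eq_one_iff hM hc).2 b1)])⟩
  have l1 : ∀ a ∈ rt k ρ N, closure ((fun b : G => a * b * a⁻¹ * b⁻¹) '' (rt k ρ M : Set G)) ≤
      ⁅rt k ρ N, rt k ρ M⁆ := fun a ha => (closure_le _).2 (by
    rintro _ ⟨b, hb, rfl⟩; exact commutator_mem_commutator ha hb)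
  have l2 : ∀ b ∈ rt k ρ M, closure ((fun a : G => a * b * a⁻¹ * b⁻¹) '' (rt k ρ N : Set G)) ≤
      ⁅rt k ρ N, rt k ρ M⁆ := fun b hb => (closure_le _).2 (by
    rintro _ ⟨a, ha, rfl⟩; exact commutator_mem_commutator ha hb)
  obtain ⟨a, ha⟩ := h.mem N hN 1
  have ha' : a ∈ rt k ρ N := subset_closure ⟨1, ha⟩
  have e : ⁅rt k ρ N, rt k ρ M⁆ = rt k ρ (N * M - M * N) :=
    le_antisymm hle ((k1 a ha' (mt (h.eq_one_iff hN ha).1 one_ne_zero)).trans (l1 a ha'))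
  refine ⟨⟨_, h3, e⟩, fun c hc => comm_sup (fun a ha => ?_) fun a ha => ?_,
    fun a ha a1 => le_antisymm (l1 a ha) (hle.trans (k1 a ha a1)),
    fun b hb b1 => le_antisymm (l2 b hb) (hle.trans (k2 b hb b1))⟩
  · refine comm_bot_iff.1 (h.cm_of h3 hN ?_) c (hle hc) a ha
    rw [sub_mul, mul_sub, h1, ← mul_assoc, ← mul_assoc, h1, h.sq N hN, mul_assoc, h.sq N hN]
    simp
  · refine comm_bot_iff.1 (h.cm_of h3 hM ?_) c (hle hc) a ha
    rw [sub_mul, mul_sub, h2, ← mul_assoc, ← mul_assoc, h2, h.sq M hM, mul_assoc, h.sq M hM]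
    simp

theorem rootSet (hg : ⨆ A ∈ fam k ρ 𝒩, A = ⊤) : IsRootSubgroupSet (fam k ρ 𝒩) := by
  refine ⟨?_, ?_, hg, ?_, ?_⟩
  · rintro _ ⟨N, hN, rfl⟩
    exact isMulCommutative_of_comm (comm_bot_iff.1 (h.cm_of hN hN rfl))
  · rintro _ ⟨N, hN, rfl⟩ e
    obtain ⟨a, ha⟩ := h.mem N hN 1
    exact one_ne_zero ((h.eq_one_iff hN ha).1 (mem_bot.1 (e ▸ subset_closure ⟨1, ha⟩)))
  · rintro _ ⟨N, hN, rfl⟩ g
    exact ⟨_, h.conj N hN g, rt_conj (h.sq N hN) g⟩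
  · rintro _ ⟨N, hN, rfl⟩ _ ⟨M, hM, rfl⟩
    rcases h.tri N hN M hM with e | ⟨l, hl, h1, h2⟩ | ⟨h1, h2, h3⟩
    · exact Or.inl (h.cm_of hN hM e)
    · exact Or.inr (Or.inl (h.psl_of hN hM hl h1 h2).2)
    · exact Or.inr (Or.inr (h.rc_of hN hM h1 h2 h3))

theorem kRootSet (hg : ⨆ A ∈ fam k ρ 𝒩, A = ⊤) : IsKRootSubgroupSet k (fam k ρ 𝒩) := by
  refine ⟨h.rootSet hg, ?_⟩
  rintro _ ⟨N, hN, rfl⟩ _ ⟨M, hM, rfl⟩ hr
  rcases h.tri N hN M hM with e | ⟨l, hl, h1, h2⟩ | ⟨h1, h2, h3⟩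
  · exact absurd (h.cm_of hN hM e) (r1_not_comm hr)
  · exact (h.psl_of hN hM hl h1 h2).1
  · exact absurd hr (RC_not_r1 (h.rootSet hg) ⟨N, hN, rfl⟩ ⟨M, hM, rfl⟩ (h.rc_of hN hM h1 h2 h3))

theorem degenerate (hg : ⨆ A ∈ fam k ρ 𝒩, A = ⊤) (hd : ∀ N ∈ 𝒩, ∀ M ∈ 𝒩, N * M * N = 0 → N * M = M * N) :
    IsDegenerateRootSet (fam k ρ 𝒩) := by
  rintro _ ⟨N, hN, rfl⟩ _ ⟨M, hM, rfl⟩ hr
  rcases h.tri N hN M hM with e | ⟨l, hl, h1, h2⟩ | ⟨h1, -⟩
  · exact RC_ne_bot (h.rootSet hg) hr (h.cm_of hN hM e)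
  · exact RC_not_r1 (h.rootSet hg) ⟨N, hN, rfl⟩ ⟨M, hM, rfl⟩ hr (h.psl_of hN hM hl h1 h2).2
  · exact RC_ne_bot (h.rootSet hg) hr (h.cm_of hN hM (hd N hN M hM h1))

theorem restrict {H : Subgroup G} (hH : ∀ N ∈ 𝒩, rt k ρ N ≤ H) : NilSys k (ρ.comp H.subtype) 𝒩 :=
  ⟨h.inj.comp H.subtype_injective, h.ne, h.sq, fun N hN c => by
    obtain ⟨g, hg⟩ := h.mem N hN c
    exact ⟨⟨g, hH N hN (subset_closure ⟨c, hg⟩)⟩, hg⟩, fun N hN g => h.conj N hN g, h.tri⟩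

theorem rt_subgroupOf (hN : N ∈ 𝒩) (H : Subgroup G) : (rt k ρ N).subgroupOf H = rt k (ρ.comp H.subtype) N := by
  ext x
  rw [mem_subgroupOf, mem_rt (h.sq N hN), mem_rt (h.sq N hN)]
  rfl

theorem fam_subgroupOf (H : Subgroup G) :
    (fun A : Subgroup G => A.subgroupOf H) '' fam k ρ 𝒩 = fam k (ρ.comp H.subtype) 𝒩 := by
  ext A
  constructor
  · rintro ⟨_, ⟨N, hN, rfl⟩, rfl⟩
    exact ⟨N, hN, h.rt_subgroupOf hN H⟩
  · rintro ⟨N, hN, rfl⟩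
    exact ⟨_, ⟨N, hN, rfl⟩, h.rt_subgroupOf hN H⟩

theorem restrict_sup : NilSys k (ρ.comp (⨆ A ∈ fam k ρ 𝒩, A).subtype) 𝒩 :=
  h.restrict fun N hN => le_iSup₂_of_le (f := fun A (_ : A ∈ fam k ρ 𝒩) => A) _ ⟨N, hN, rfl⟩ le_rfl

theorem gen_sup : ⨆ A ∈ fam k (ρ.comp (⨆ A ∈ fam k ρ 𝒩, A).subtype) 𝒩, A = ⊤ := by
  rw [← h.fam_subgroupOf, iSup_image]
  refine map_injective (⨆ A ∈ fam k ρ 𝒩, A).subtype_injective ?_
  simp only [Subgroup.map_iSup]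
  rw [← MonoidHom.range_eq_map, range_subtype]
  exact iSup_congr fun A => iSup_congr fun hA => map_subgroupOf_eq_of_le
    (le_iSup₂_of_le (f := fun A (_ : A ∈ fam k ρ 𝒩) => A) _ hA le_rfl)

end NilSys

theorem class_of_conn {S : Set (Subgroup G)} (hS : IsRootSubgroupSet S) (hne : S.Nonempty)
    (hc : IsConnectedFamily (FAdj S) S) : IsRootSubgroupClass S :=
  ⟨hS, hne, fun A hA B hB => path_isConj (hc A hA B hB)⟩

end Cfsg.Agent.H23.RS
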