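import Cfsg.Agent.H23.RS1
import Cfsg.Agent.H12.Lin
import Cfsg.Agent.H12.SBridge

/-!
# Transvection groups of linear, symplectic and unitary groups as root subgroups
-/

set_option autoImplicit false

namespace Cfsg.Agent.H23.RS

open Subgroup Cfsg.Agent.H29 Matrix
open scoped commutatorElement MatrixGroups

section
variable {k : Type*} [Field k] {R : Type*} [Ring R] [Algebra k R] {G : Type*} [Group G]
  {ρ : G →* R} {𝒩 : Set R} {N M : R}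

/-- opposite elements -/
def Opp (k : Type*) [Field k] [Algebra k R] (N M : R) : Prop := ∃ l : k, l ≠ 0 ∧ N * M * N = l • N ∧ M * N * M = l • M

theorem Opp.symm (h : Opp k N M) : Opp k M N := h.imp fun _ h => ⟨h.1, h.2.2, h.2.1⟩

theorem NilSys.fadj (h : NilSys k ρ 𝒩) (hN : N ∈ 𝒩) (hM : M ∈ 𝒩) (ho : Opp k N M) :
    FAdj (fam k ρ 𝒩) (rt k ρ N) (rt k ρ M) :=
  let ⟨_, hl, h1, h2⟩ := ho
  ⟨⟨N, hN, rfl⟩, ⟨M, hM, rfl⟩, (h.psl_of hN hM hl h1 h2).2⟩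

theorem NilSys.conn (h : NilSys k ρ 𝒩) (hc : ∀ N ∈ 𝒩, ∀ M ∈ 𝒩, ∃ L ∈ 𝒩, Opp k N L ∧ Opp k M L) :
    IsConnectedFamily (FAdj (fam k ρ 𝒩)) (fam k ρ 𝒩) := by
  rintro _ ⟨N, hN, rfl⟩ _ ⟨M, hM, rfl⟩
  obtain ⟨L, hL, h1, h2⟩ := hc N hN M hM
  exact (Relation.ReflTransGen.single (h.fadj hN hL h1)).tail (h.fadj hL hM h2.symm)

theorem NilSys.eq_iff (h : NilSys k ρ 𝒩) (hN : N ∈ 𝒩) (hM : M ∈ 𝒩) (e : rt k ρ N = rt k ρ M) :
    ∃ c : k, c ≠ 0 ∧ N = c • M := by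
  obtain ⟨g, hg⟩ := h.mem N hN 1
  obtain ⟨c, hc⟩ := (mem_rt (h.sq M hM)).1 (e ▸ subset_closure ⟨1, hg⟩ : g ∈ rt k ρ M)
  rw [hg, one_smul, add_right_inj] at hc
  exact ⟨c, fun e => h.ne N hN (by rw [hc, e, zero_smul]), hc⟩

end

section SL
variable (k : Type*) [Field k] (ι : Type*) [Fintype ι] [DecidableEq ι]

/-- the rank one nilpotent matrices -/
def NL : Set (Matrix ι ι k) := {N | ∃ p φ, p ≠ 0 ∧ φ ≠ 0 ∧ φ ⬝ᵥ p = 0 ∧ N = vecMulVec p φ}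

/-- the natural representation -/
def slρ : SpecialLinearGroup ι k →* Matrix ι ι k := (Units.coeHom _).comp SpecialLinearGroup.toGL

variable {k ι}

theorem slρ_apply (g : SpecialLinearGroup ι k) : slρ k ι g = g.1 := rfl

theorem vv (p φ r ψ : ι → k) : vecMulVec p φ * vecMulVec r ψ = (φ ⬝ᵥ r) • vecMulVec p ψ := by
  rw [vecMulVec_mul_vecMulVec, vecMulVec_smul]

theorem opp_NL {p φ r ψ : ι → k} (h1 : φ ⬝ᵥ r ≠ 0) (h2 : ψ ⬝ᵥ p ≠ 0) : Opp k (vecMulVec p φ) (vecMulVec r ψ) :=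
  ⟨φ ⬝ᵥ r * ψ ⬝ᵥ p, mul_ne_zero h1 h2, by rw [vv, smul_mul_assoc, vv, smul_smul],
    by rw [vv, smul_mul_assoc, vv, smul_smul, mul_comm]⟩

theorem smul_NL {N : Matrix ι ι k} (hN : N ∈ NL k ι) {c : k} (hc : c ≠ 0) : c • N ∈ NL k ι := by
  obtain ⟨p, φ, hp, hφ, h, rfl⟩ := hN
  exact ⟨c • p, φ, smul_ne_zero hc hp, hφ, by rw [dotProduct_smul, h, smul_zero], (smul_vecMulVec _ _ _).symm⟩

theorem single_NL {i j : ι} (h : i ≠ j) : single i j (1 : k) ∈ NL k ι :=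
  ⟨Pi.single i 1, Pi.single j 1, by simp, by simp, by simp [h], single_eq_single_vecMulVec_single i j⟩

theorem nilSys_NL : NilSys k (slρ k ι) (NL k ι) := by
  refine ⟨fun a b h => Subtype.ext h, ?_, ?_, ?_, ?_, ?_⟩
  · rintro _ ⟨p, φ, hp, hφ, -, rfl⟩
    simp [hp, hφ]
  · rintro _ ⟨p, φ, -, -, h, rfl⟩
    rw [vv, h, zero_smul]
  · rintro _ ⟨p, φ, -, -, h, rfl⟩ c
    refine ⟨⟨1 + c • vecMulVec p φ, ?_⟩, rfl⟩
    rw [← smul_vecMulVec, vecMulVec_eq Unit, det_one_add_replicateCol_mul_replicateRow, dotProduct_smul, h, smul_zero,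
      add_zero]
  · rintro _ ⟨p, φ, hp, hφ, h, rfl⟩ g
    have e : slρ k ι g⁻¹ * slρ k ι g = 1 := by rw [← map_mul, inv_mul_cancel, map_one]
    refine ⟨slρ k ι g *ᵥ p, φ ᵥ* slρ k ι g⁻¹, fun h0 => hp ?_, fun h0 => hφ ?_, ?_, by rw [mul_vecMulVec, vecMulVec_mul]⟩
    · rw [← one_mulVec p, ← e, ← mulVec_mulVec, h0, mulVec_zero]
    · rw [← vecMul_one φ, ← e, ← vecMul_vecMul, h0, zero_vecMul]
    · rw [← dotProduct_mulVec, mulVec_mulVec, e, one_mulVec, h]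
  · rintro _ ⟨p, φ, hp, hφ, h, rfl⟩ _ ⟨r, ψ, hr, hψ, h', rfl⟩
    by_cases h1 : φ ⬝ᵥ r = 0 <;> by_cases h2 : ψ ⬝ᵥ p = 0
    · exact Or.inl (by rw [vv, vv, h1, h2, zero_smul, zero_smul])
    · refine Or.inr (Or.inr ⟨by simp [vv, h1], by simp [vv, h1], ?_⟩)
      rw [vv, vv, h1, zero_smul, zero_sub, ← neg_smul]
      exact smul_NL ⟨r, φ, hr, hφ, h1, rfl⟩ (neg_ne_zero.2 h2)
    · refine Or.inr (Or.inr ⟨by simp [vv, h2], by simp [vv, h2], ?_⟩)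
      rw [vv, vv, h2, zero_smul, sub_zero]
      exact smul_NL ⟨p, ψ, hp, hψ, h2, rfl⟩ h1
    · exact Or.inr (Or.inl (opp_NL h1 h2))

theorem gen_NL : ⨆ A ∈ fam k (slρ k ι) (NL k ι), A = ⊤ :=
  H12.SL_eq_top_of_transvection_mem fun i j h c =>
    le_iSup₂_of_le (f := fun A (_ : A ∈ fam k (slρ k ι) (NL k ι)) => A) _ ⟨_, single_NL h, rfl⟩ le_rfl
      (subset_closure ⟨c, by rw [smul_single, smul_eq_mul, mul_one]; rfl⟩)

theorem exists_dot {p r s : ι → k} (h1 : ∃ φ, φ ⬝ᵥ s = 0 ∧ φ ⬝ᵥ p ≠ 0) (h2 : ∃ φ, φ ⬝ᵥ s = 0 ∧ φ ⬝ᵥ r ≠ 0) :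
    ∃ φ, φ ⬝ᵥ s = 0 ∧ φ ⬝ᵥ p ≠ 0 ∧ φ ⬝ᵥ r ≠ 0 := by
  obtain ⟨φ, a1, a2⟩ := h1
  obtain ⟨ψ, b1, b2⟩ := h2
  by_cases c1 : φ ⬝ᵥ r = 0
  · by_cases c2 : ψ ⬝ᵥ p = 0
    · exact ⟨φ + ψ, by simp [a1, b1], by simp [a2, c2], by simp [c1, b2]⟩
    · exact ⟨ψ, b1, c2, b2⟩
  · exact ⟨φ, a1, a2, c1⟩

theorem exists_dot1 {p : ι → k} (hp : p ≠ 0) : ∃ φ, φ ⬝ᵥ 0 = 0 ∧ φ ⬝ᵥ p ≠ 0 := by
  obtain ⟨i, hi⟩ := Function.ne_iff.1 hp
  exact ⟨Pi.single i 1, by simp, by simpa using hi⟩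

theorem exists_dot2 {p φ s : ι → k} (hp : p ≠ 0) (h : φ ⬝ᵥ p = 0) (hs : s ⬝ᵥ φ ≠ 0) : ∃ χ, χ ⬝ᵥ s = 0 ∧ χ ⬝ᵥ p ≠ 0 := by
  obtain ⟨ψ, -, hψ⟩ := exists_dot1 hp
  rw [dotProduct_comm] at hs
  exact ⟨ψ - (ψ ⬝ᵥ s / φ ⬝ᵥ s) • φ, by simp [hs], by simpa [h] using hψ⟩

theorem common_NL : ∀ N ∈ NL k ι, ∀ M ∈ NL k ι, ∃ L ∈ NL k ι, Opp k N L ∧ Opp k M L := by
  rintro _ ⟨p, φ, hp, hφ, h, rfl⟩ _ ⟨r, ψ, hr, hψ, h', rfl⟩
  obtain ⟨s, -, s1, s2⟩ := exists_dot (exists_dot1 hφ) (exists_dot1 hψ)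
  obtain ⟨χ, c0, c1, c2⟩ := exists_dot (exists_dot2 hp h s1) (exists_dot2 hr h' s2)
  exact ⟨_, ⟨s, χ, fun e => s1 (by simp [e]), fun e => c1 (by simp [e]), c0, rfl⟩,
    opp_NL (dotProduct_comm s φ ▸ s1) c1, opp_NL (dotProduct_comm s ψ ▸ s2) c2⟩

theorem fam_NL {i j : ι} (h : i ≠ j) : {A : Subgroup (SpecialLinearGroup ι k) | ∃ g, A = conjBy (closure
    {t : SpecialLinearGroup ι k | ∃ c : k, (t : Matrix ι ι k) = transvection i j c}) g} = fam k (slρ k ι) (NL k ι) := by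
  have e : closure {t : SpecialLinearGroup ι k | ∃ c : k, (t : Matrix ι ι k) = transvection i j c} =
      rt k (slρ k ι) (single i j 1) := by
    simp only [rt, smul_single, smul_eq_mul, mul_one]; rfl
  rw [e]
  ext A
  exact ⟨fun ⟨g, hg⟩ => hg ▸ (nilSys_NL.rootSet gen_NL).conj_mem _ ⟨_, single_NL h, rfl⟩ g,
    fun hA => path_isConj (nilSys_NL.conn common_NL _ ⟨_, single_NL h, rfl⟩ A hA)⟩

end SL

section SD
open H12
variable (k : Type*) [Field k] {F V : Type*} [Field F] [Algebra k F] [AddCommGroup V] [Module F V] [Module k V]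
  [IsScalarTower k F V] {σ : F →+* F} (B : V →ₛₗ[σ] V →ₗ[F] F) {G : Type*} [Group G] (ρ : G →* Module.End F V)

/-- the nilpotent parts of transvections -/
def NB : Set (Module.End F V) := {N | ∃ p, p ≠ 0 ∧ B p p = 0 ∧ N = (B p).smulRight p}

/-- a group of isometries containing the transvections -/
structure TvSys : Prop where
  sd : SD B
  fix : ∀ c : F, σ c = c ↔ ∃ a : k, algebraMap k F a = c
  inj : Function.Injective ρ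
  iso : ∀ g x y, B (ρ g x) (ρ g y) = B x y
  mem : ∀ p c, B p p = 0 → σ c = c → ∃ g, ∀ x, ρ g x = x + (c * B p x) • p

variable {k B ρ}

theorem bb (p r : V) : (B p).smulRight p * (B r).smulRight r = B p r • (B r).smulRight p :=
  LinearMap.ext fun x => by simp [smul_smul, mul_comm]

theorem bb' (p r s : V) : (B r).smulRight p * (B s).smulRight s = B r s • (B s).smulRight p :=
  LinearMap.ext fun x => by simp [smul_smul, mul_comm]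

theorem TvSys.opp (h : TvSys k B ρ) {p r : V} (h1 : B p r ≠ 0) : Opp k ((B p).smulRight p) ((B r).smulRight r) := by
  obtain ⟨l, hl⟩ := (h.fix (B p r * B r p)).1 (by rw [map_mul, h.sd.σ_map, h.sd.σ_map]; ring)
  refine ⟨l, fun e => mul_ne_zero h1 (h.sd.ne0 h1) (by rw [← hl, e, map_zero]), ?_, ?_⟩
  · rw [bb, smul_mul_assoc, bb', smul_smul, ← hl, algebraMap_smul]
  · rw [bb, smul_mul_assoc, bb', smul_smul, mul_comm, ← hl, algebraMap_smul]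

theorem TvSys.comm (h : TvSys k B ρ) {p r : V} (h1 : B p r = 0) :
    (B p).smulRight p * (B r).smulRight r = (B r).smulRight r * (B p).smulRight p := by
  rw [bb, bb, h1, h.sd.comm0 h1, zero_smul, zero_smul]

theorem TvSys.nilSys (h : TvSys k B ρ) : NilSys k ρ (NB B) := by
  refine ⟨h.inj, ?_, ?_, ?_, ?_, ?_⟩
  · rintro _ ⟨p, hp, -, rfl⟩ e
    obtain ⟨y, hy⟩ := h.sd.exists_ne hp
    exact smul_ne_zero hy hp (LinearMap.congr_fun e y)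
  · rintro _ ⟨p, -, h, rfl⟩
    rw [bb, h, zero_smul]
  · rintro _ ⟨p, -, hp, rfl⟩ c
    obtain ⟨g, hg⟩ := h.mem p _ hp ((h.fix _).2 ⟨c, rfl⟩)
    exact ⟨g, LinearMap.ext fun x => by simp [hg, mul_smul]⟩
  · rintro _ ⟨p, hp, h0, rfl⟩ g
    have e : ∀ x, ρ g (ρ g⁻¹ x) = x := fun x => by
      rw [← Module.End.mul_apply, ← map_mul, mul_inv_cancel, map_one, Module.End.one_apply]
    have e' : ρ g⁻¹ (ρ g p) = p := by
      rw [← Module.End.mul_apply, ← map_mul, inv_mul_cancel, map_one, Module.End.one_apply]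
    refine ⟨ρ g p, fun h0 => hp (by rw [← e', h0, map_zero]), by rw [h.iso, h0], LinearMap.ext fun x => ?_⟩
    simp only [Module.End.mul_apply, LinearMap.smulRight_apply, map_smul]
    rw [← h.iso g, e]
  · rintro _ ⟨p, hp, -, rfl⟩ _ ⟨r, hr, -, rfl⟩
    by_cases h1 : B p r = 0
    · exact Or.inl (h.comm h1)
    · exact Or.inr (Or.inl (h.opp h1))

theorem TvSys.deg (h : TvSys k B ρ) : ∀ N ∈ NB B, ∀ M ∈ NB B, N * M * N = 0 → N * M = M * N := by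
  rintro _ ⟨p, hp, h0, rfl⟩ _ ⟨r, hr, -, rfl⟩ e
  refine h.comm (by_contra fun h1 => ?_)
  obtain ⟨l, hl, h2, -⟩ := h.opp h1
  exact smul_ne_zero hl (h.nilSys.ne _ ⟨p, hp, h0, rfl⟩) (h2.symm.trans e)

theorem exists_partner (D : SD B) {p : V} (hp : p ≠ 0) (h0 : B p p = 0) : ∃ f, B f f = 0 ∧ B p f ≠ 0 := by
  obtain ⟨y, hy⟩ := D.exists_ne hp
  obtain ⟨a, ha⟩ := D.exists_iso_add h0 hy
  exact ⟨_, ha, by simpa [h0] using hy⟩

theorem TvSys.common (h : TvSys k B ρ) : ∀ N ∈ NB B, ∀ M ∈ NB B, ∃ L ∈ NB B, Opp k N L ∧ Opp k M L := by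
  rintro _ ⟨p, hp, h0, rfl⟩ _ ⟨r, hr, h1, rfl⟩
  suffices ∃ s, B s s = 0 ∧ B p s ≠ 0 ∧ B r s ≠ 0 by
    obtain ⟨s, s0, s1, s2⟩ := this
    exact ⟨_, ⟨s, fun e => s1 (by simp [e]), s0, rfl⟩, h.opp s1, h.opp s2⟩
  obtain ⟨f, f0, f1⟩ := exists_partner h.sd hp h0
  obtain ⟨g, g0, g1⟩ := exists_partner h.sd hr h1
  by_cases c1 : B r f = 0
  · by_cases c2 : B p g = 0
    · obtain ⟨c, hc, hc'⟩ : ∃ c : F, c ≠ 0 ∧ σ (c * σ (B g f)) = c * σ (B g f) := by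
        by_cases c3 : B g f = 0
        · exact ⟨1, one_ne_zero, by simp [c3]⟩
        · exact ⟨_, inv_ne_zero (h.sd.σ_ne_zero c3), by rw [inv_mul_cancel₀ (h.sd.σ_ne_zero c3), map_one]⟩
      exact ⟨f + c • g, by rw [h.sd.self_add_smul f g g0, hc', f0, sub_self, sub_self], by simpa [c2] using f1,
        by simpa [c1, hc] using g1⟩
    · exact ⟨g, g0, c2, g1⟩
  · exact ⟨f, f0, f1, c1⟩

end SD

end Cfsg.Agent.H23.RS
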