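import Cfsg.Agent.H23.RS2
import Cfsg.Agent.H13.Bridge

/-!
# Siegel transvection groups as root subgroups
-/

set_option autoImplicit false

namespace Cfsg.Agent.H23.RS

open Subgroup Cfsg.Agent.H29 Cfsg.Agent.H13 QuadraticMap

variable {F V : Type*} [Field F] [AddCommGroup V] [Module F V] (Q : QuadraticForm F V)
  {G : Type*} [Group G] {ρ : G →* Module.End F V}

/-- the nilpotent part of a Siegel element -/
def nS (p r : V) : Module.End F V := (polarBilin Q p).smulRight r - (polarBilin Q r).smulRight p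

/-- totally singular pairs -/
def TS (p r : V) : Prop := Q p = 0 ∧ Q r = 0 ∧ polar Q p r = 0

/-- the nilpotent parts of Siegel elements -/
def NS : Set (Module.End F V) := {N | N ≠ 0 ∧ ∃ p r, TS Q p r ∧ N = nS Q p r}

variable {Q} {p r s t : V}

theorem nS_apply (p r x : V) : nS Q p r x = polar Q p x • r - polar Q r x • p := rfl

theorem nS_swap (p r : V) : nS Q r p = -nS Q p r := by simp [nS]

theorem nS_comb (p r : V) (a b c d : F) : nS Q (a • p + b • r) (c • p + d • r) = (a * d - b * c) • nS Q p r :=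
  LinearMap.ext fun x => by
    simp only [nS_apply, LinearMap.smul_apply, polar_add_left, polar_smul_left, smul_eq_mul]
    module

theorem TS.symm (h : TS Q p r) : TS Q r p := ⟨h.2.1, h.1, by rw [polar_comm, h.2.2]⟩

theorem TS.pp (h : TS Q p r) : polar Q p p = 0 := by rw [polar_self', h.1, mul_zero]

theorem TS.comb (h : TS Q p r) (a b : F) : Q (a • p + b • r) = 0 := by
  simp [Q_add, Q_smul, h.1, h.2.1, h.2.2]

theorem TS.comb' (h : TS Q p r) (a b c d : F) : TS Q (a • p + b • r) (c • p + d • r) :=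
  ⟨h.comb a b, h.comb c d, by simp [h.pp, h.symm.pp, h.2.2, h.symm.2.2]⟩

theorem nmn (p r s t : V) : nS Q p r * nS Q s t * nS Q p r =
    (polar Q p t * polar Q r s - polar Q p s * polar Q r t) • nS Q p r :=
  LinearMap.ext fun x => by
    simp only [Module.End.mul_apply, nS_apply, LinearMap.smul_apply, polar_sub_right, polar_smul_right, smul_eq_mul,
      polar_comm Q s p, polar_comm Q t p, polar_comm Q s r, polar_comm Q t r]
    module

theorem opp_NS (h : polar Q p t * polar Q r s - polar Q p s * polar Q r t ≠ 0) : Opp F (nS Q p r) (nS Q s t) :=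
  ⟨_, h, nmn .., by rw [nmn, polar_comm Q s, polar_comm Q s, polar_comm Q t, polar_comm Q t, mul_comm (polar Q r s)]⟩

theorem comm_NS (h1 : TS Q p r) (h2 : TS Q s t) (h : polar Q p t * polar Q r s - polar Q p s * polar Q r t = 0)
    (ha : polar Q p s ≠ 0) : ∃ u w, TS Q u w ∧ nS Q p r * nS Q s t - nS Q s t * nS Q p r = nS Q u w := by
  have e : polar Q r t = polar Q p t * polar Q r s / polar Q p s := by field_simp; linear_combination -h
  refine ⟨(-polar Q r s) • p + polar Q p s • r, (-polar Q p t / polar Q p s) • s + (1 : F) • t,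
    ⟨h1.comb .., h2.comb .., ?_⟩, LinearMap.ext fun x => ?_⟩
  · simp only [polar_add_left, polar_add_right, polar_smul_left, polar_smul_right, smul_eq_mul, e]
    field_simp
    ring
  · simp only [LinearMap.sub_apply, Module.End.mul_apply, nS_apply, polar_sub_right, polar_smul_right, smul_eq_mul,
      polar_add_left, polar_smul_left, polar_comm Q s p, polar_comm Q s r, polar_comm Q t p, polar_comm Q t r, e]
    match_scalars <;> field_simp <;> ring

theorem comm_NS' (h1 : TS Q p r) (h2 : TS Q s t) (h : polar Q p t * polar Q r s - polar Q p s * polar Q r t = 0) :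
    ∃ u w, TS Q u w ∧ nS Q p r * nS Q s t - nS Q s t * nS Q p r = nS Q u w := by
  by_cases a : polar Q p s = 0
  · by_cases b : polar Q p t = 0
    · by_cases c : polar Q r s = 0
      · by_cases d : polar Q r t = 0
        · refine ⟨0, 0, ⟨map_zero _, map_zero _, by simp⟩, LinearMap.ext fun x => ?_⟩
          simp [nS_apply, a, b, c, d, polar_comm Q s p, polar_comm Q s r, polar_comm Q t p, polar_comm Q t r]
        · obtain ⟨u, w, h3, h4⟩ := comm_NS h1.symm h2.symm (by linear_combination h) d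
          exact ⟨u, w, h3, by rw [← h4, nS_swap p, nS_swap s]; simp⟩
      · obtain ⟨u, w, h3, h4⟩ := comm_NS h1.symm h2 (by linear_combination -h) c
        exact ⟨w, u, h3.symm, by rw [nS_swap u, ← h4, nS_swap p]; simp; abel⟩
    · obtain ⟨u, w, h3, h4⟩ := comm_NS h1 h2.symm (by linear_combination -h) b
      exact ⟨w, u, h3.symm, by rw [nS_swap u, ← h4, nS_swap s]; simp; abel⟩
  · exact comm_NS h1 h2 h a

variable [FiniteDimensional F V]

theorem nS_ne (hQ : ND Q) : nS Q p r ≠ 0 ↔ LinearIndependent F ![p, r] := by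
  refine ⟨fun h => LinearIndependent.pair_iff.2 fun a b e => ?_, fun h e => ?_⟩
  · have h1 := nS_comb (Q := Q) p r a b 0 1
    have h2 := nS_comb (Q := Q) p r 1 0 a b
    rw [e] at h1 h2
    simp only [nS, map_zero, LinearMap.zero_smulRight, LinearMap.smulRight_zero, sub_self] at h1 h2
    exact ⟨by simpa using (smul_eq_zero.1 h1.symm).resolve_right h, by simpa using (smul_eq_zero.1 h2.symm).resolve_right h⟩
  · obtain ⟨b, hb⟩ := hQ.exists_polar_eq h ![1, 0]
    have := LinearMap.congr_fun e b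
    rw [nS_apply, polar_comm, polar_comm Q r, show polar Q b p = 1 from hb 0, show polar Q b r = 0 from hb 1] at this
    exact h.ne_zero 1 (by simpa using this)

theorem nilSys_NS (inj : Function.Injective ρ) (iso : ∀ g x, Q (ρ g x) = Q x)
    (mem : ∀ g : OG Q, ∃ x, ∀ v, ρ x v = g.1 v) : NilSys F ρ (NS Q) := by
  refine ⟨inj, fun N h => h.1, ?_, ?_, ?_, ?_⟩
  · rintro _ ⟨-, p, r, h, rfl⟩
    exact LinearMap.ext fun x => by simp [nS_apply, h.pp, h.symm.pp, h.2.2, h.symm.2.2]
  · rintro _ ⟨-, p, r, h, rfl⟩ c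
    obtain ⟨g, hg⟩ := mem (sieg Q p (-c • r))
    refine ⟨g, LinearMap.ext fun x => ?_⟩
    rw [hg, sieg_apply h.1 (by simp [h.2.2])]
    simp only [Q_smul, h.2.1, polar_smul_left, LinearMap.add_apply, LinearMap.smul_apply, nS_apply, Module.End.one_apply,
      smul_eq_mul]
    module
  · rintro _ ⟨h0, p, r, h, rfl⟩ g
    have e : ∀ x, ρ g (ρ g⁻¹ x) = x := fun x => by
      rw [← Module.End.mul_apply, ← map_mul, mul_inv_cancel, map_one, Module.End.one_apply]
    have ip : ∀ x y, polar Q (ρ g x) (ρ g y) = polar Q x y := fun x y => by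
      simp only [polar, ← map_add, iso]
    refine ⟨fun h1 => h0 ?_, ρ g p, ρ g r, ⟨by rw [iso, h.1], by rw [iso, h.2.1], by rw [ip, h.2.2]⟩,
      LinearMap.ext fun x => ?_⟩
    · have := congrArg (fun X => ρ g⁻¹ * X * ρ g) h1
      simpa only [← mul_assoc, ← map_mul, inv_mul_cancel, map_one, one_mul, mul_assoc _ (ρ g⁻¹), mul_one, mul_zero,
        zero_mul] using this
    · simp only [Module.End.mul_apply, nS_apply, map_smul, map_sub]
      rw [← ip p, ← ip r, e]
  · rintro _ ⟨-, p, r, h1, rfl⟩ _ ⟨-, s, t, h2, rfl⟩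
    by_cases h : polar Q p t * polar Q r s - polar Q p s * polar Q r t = 0
    · obtain ⟨u, w, h3, h4⟩ := comm_NS' h1 h2 h
      by_cases h5 : nS Q u w = 0
      · exact Or.inl (sub_eq_zero.1 (h4.trans h5))
      · refine Or.inr (Or.inr ⟨by rw [nmn, h, zero_smul], ?_, h4 ▸ h5, u, w, h3, h4⟩)
        rw [nmn, polar_comm Q s, polar_comm Q s, polar_comm Q t, polar_comm Q t, mul_comm (polar Q r s), h, zero_smul]
    · exact Or.inr (Or.inl (opp_NS h))

theorem fix_iff (hQ : ND Q) (h : TS Q p r) (hl : LinearIndependent F ![p, r]) {g : Module.End F V}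
    (iso : ∀ x, Q (g x) = Q x) :
    (∀ v, polar Q v p = 0 → polar Q v r = 0 → g v = v) ↔ ∃ c : F, g = 1 + c • nS Q p r := by
  refine ⟨fun H => ?_, fun ⟨c, hc⟩ v h1 h2 => by simp [hc, nS_apply, polar_comm Q p, polar_comm Q r, h1, h2]⟩
  have ip : ∀ x y, polar Q (g x) (g y) = polar Q x y := fun x y => by simp only [polar, ← map_add, iso]
  obtain ⟨a, ha⟩ := hQ.exists_polar_eq hl ![1, 0]
  obtain ⟨b, hb⟩ := hQ.exists_polar_eq hl ![0, 1]
  have a1 : polar Q a p = 1 := ha 0
  have a2 : polar Q a r = 0 := ha 1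
  have b1 : polar Q b p = 0 := hb 0
  have b2 : polar Q b r = 1 := hb 1
  have d : ∀ v, g (v - polar Q v p • a - polar Q v r • b) = v - polar Q v p • a - polar Q v r • b := fun v =>
    H _ (by simp [a1, b1]) (by simp [a2, b2])
  have k : ∀ x, g x = x + polar Q (g x - x) a • p + polar Q (g x - x) b • r := fun x => by
    by_contra h0
    obtain ⟨v, hv⟩ := hQ.exists_ne (sub_ne_zero.2 h0)
    have := ip x (v - polar Q v p • a - polar Q v r • b)
    rw [d] at this
    simp only [polar_sub_left, polar_sub_right, polar_add_left, polar_smul_left, polar_smul_right, smul_eq_mul,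
      polar_comm Q p v, polar_comm Q r v] at this hv
    exact hv (by linear_combination this)
  obtain ⟨α, β, ka⟩ : ∃ α β : F, g a = a + (α • p + β • r) := ⟨_, _, by rw [← add_assoc]; exact k a⟩
  obtain ⟨γ, δ, kb⟩ : ∃ α β : F, g b = b + (α • p + β • r) := ⟨_, _, by rw [← add_assoc]; exact k b⟩
  have c1 := iso a
  have c2 := iso b
  have c3 := ip a b
  rw [ka] at c1 c3
  rw [kb] at c2 c3
  rw [Q_add, h.comb] at c1 c2
  simp only [polar_add_left, polar_add_right, polar_smul_left, polar_smul_right, smul_eq_mul, a1, a2, b1, b2,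
    polar_comm Q p b, polar_comm Q r b, h.pp, h.symm.pp, h.2.2, h.symm.2.2] at c1 c2 c3
  obtain rfl : α = 0 := by linear_combination c1
  obtain rfl : δ = 0 := by linear_combination c2
  obtain rfl : γ = -β := by linear_combination c3
  refine ⟨β, LinearMap.ext fun v => ?_⟩
  have := d v
  rw [map_sub, map_sub, map_smul, map_smul, ka, kb, sub_sub, sub_eq_iff_eq_add] at this
  simp only [this, LinearMap.add_apply, LinearMap.smul_apply, nS_apply, Module.End.one_apply, polar_comm Q p,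
    polar_comm Q r]
  module

theorem not_mem_of_li (h : LinearIndependent F ![p, r]) : r ∉ F ∙ p := fun e => by
  obtain ⟨a, rfl⟩ := Submodule.mem_span_singleton.1 e
  exact one_ne_zero (neg_eq_zero.1 (LinearIndependent.pair_iff.1 h a (-1) (by simp)).2)

theorem conn_NS (hQ : ND Q) (h : NilSys F ρ (NS Q)) {e₀ e₁ e₂ : V} (hl : LinearIndependent F ![e₀, e₁, e₂])
    (h1 : TS Q e₀ e₁) (h2 : TS Q e₀ e₂) (h3 : polar Q e₁ e₂ = 0) :
    IsConnectedFamily (FAdj (fam F ρ (NS Q))) (fam F ρ (NS Q)) := by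
  have s1 : ∀ p r s, nS Q p r ≠ 0 → nS Q p s ≠ 0 → TS Q p r → TS Q p s → polar Q r s = 0 →
      Relation.ReflTransGen (FAdj (fam F ρ (NS Q))) (rt F ρ (nS Q p r)) (rt F ρ (nS Q p s)) := by
    intro p r s n1 n2 t1 t2 h0
    obtain ⟨b, b0, b1, b2⟩ := hQ.exists_perp_ne_two (F ∙ p) (not_mem_of_li ((nS_ne hQ).1 n1))
      (not_mem_of_li ((nS_ne hQ).1 n2))
    have b0 := b0 p (Submodule.mem_span_singleton_self p)
    obtain ⟨t, c0, c1, c2, c3⟩ : ∃ t, Q t = 0 ∧ polar Q p t = 0 ∧ polar Q r t = 1 ∧ polar Q s t ≠ 0 :=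
      ⟨b - Q b • r, by simp [Q_sub, Q_smul, t1.2.1, b1], by simp [polar_comm Q p b, b0, t1.2.2],
        by simp [polar_comm Q r b, b1, t1.symm.pp], by simpa [polar_comm Q s, h0] using b2⟩
    obtain ⟨u, u0, u1, u2⟩ := hQ.exists_partner (F ∙ t) t1.1 (fun e => by
      obtain ⟨a, rfl⟩ := Submodule.mem_span_singleton.1 e
      have := t1.symm.2.2
      rw [polar_smul_right, c2, smul_eq_mul, mul_one] at this
      exact n1 (by simp [this, nS])) fun x hx => by
        obtain ⟨a, rfl⟩ := Submodule.mem_span_singleton.1 hx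
        simp [c1]
    have o1 : Opp F (nS Q p r) (nS Q u t) := opp_NS (by simp [c1, u1, c2])
    have o2 : Opp F (nS Q p s) (nS Q u t) := opp_NS (by simp [c1, u1, c3])
    have m : nS Q u t ∈ NS Q := ⟨fun e => by
      obtain ⟨l, hl, e1, -⟩ := o1
      rw [e, mul_zero, zero_mul] at e1
      exact smul_ne_zero hl n1 e1.symm, u, t, ⟨u0, c0, u2 t (Submodule.mem_span_singleton_self t)⟩, rfl⟩
    exact (Relation.ReflTransGen.single (h.fadj ⟨n1, p, r, t1, rfl⟩ m o1)).tail (h.fadj m ⟨n2, p, s, t2, rfl⟩ o2.symm)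
  have s2 : ∀ p r s, nS Q p r ≠ 0 → nS Q p s ≠ 0 → TS Q p r → TS Q p s →
      Relation.ReflTransGen (FAdj (fam F ρ (NS Q))) (rt F ρ (nS Q p r)) (rt F ρ (nS Q p s)) := by
    intro p r s n1 n2 t1 t2
    by_cases h0 : polar Q r s = 0
    · exact s1 p r s n1 n2 t1 t2 h0
    have hl' := Fintype.linearIndependent_iff.1 hl
    obtain ⟨g, g0, g1⟩ := hQ.witt_two (x := e₀) (y := e₁) (LinearIndependent.pair_iff.2 fun a b e =>
      ⟨hl' ![a, b, 0] (by simpa [Fin.sum_univ_three] using e) 0, hl' ![a, b, 0] (by simpa [Fin.sum_univ_three] using e) 1⟩)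
      ((nS_ne hQ).1 n1) (t1.1.trans h1.1.symm) (t1.2.1.trans h1.2.1.symm) (t1.2.2.trans h1.2.2.symm)
    subst g0 g1
    have t3 : TS Q (g.1 e₂) (g.1 e₁) := ⟨by rw [OG_map, h2.2.1], t1.2.1, by rw [OG_polar, polar_comm, h3]⟩
    set c := -polar Q (g.1 e₂) s / polar Q (g.1 e₁) s with hc
    have t4 : TS Q (g.1 e₀) ((1 : F) • g.1 e₂ + c • g.1 e₁) :=
      ⟨t1.1, t3.comb .., by simp [OG_polar, h1.2.2, h2.2.2]⟩
    have n3 : nS Q (g.1 e₀) ((1 : F) • g.1 e₂ + c • g.1 e₁) ≠ 0 := (nS_ne hQ).2 (LinearIndependent.pair_iff.2 fun a b e => by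
      have e' : a • e₀ + (b * c) • e₁ + b • e₂ = 0 := g.1.injective (by
        simp only [map_add, map_smul, map_zero]; rw [← e]; module)
      exact ⟨hl' ![a, b * c, b] (by simpa [Fin.sum_univ_three] using e') 0,
        hl' ![a, b * c, b] (by simpa [Fin.sum_univ_three] using e') 2⟩)
    exact (s1 _ _ _ n1 n3 t1 t4 (by simp [t3.symm.pp, t3.symm.2.2])).trans
      (s1 _ _ _ n3 n2 t4 t2 (by simp only [polar_add_left, polar_smul_left, smul_eq_mul, hc]; field_simp; ring))
  have s3 : ∀ p r s t, nS Q p r ≠ 0 → nS Q s t ≠ 0 → TS Q p r → TS Q s t → polar Q p s = 0 →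
      Relation.ReflTransGen (FAdj (fam F ρ (NS Q))) (rt F ρ (nS Q p r)) (rt F ρ (nS Q s t)) := by
    intro p r s t n1 n2 t1 t2 h0
    by_cases n3 : nS Q p s = 0
    · obtain ⟨a, rfl⟩ : ∃ a : F, a • p = s := by
        by_contra! h4
        exact (nS_ne hQ).2 ((LinearIndependent.pair_iff' (((nS_ne hQ).1 n1).ne_zero 0)).2 h4) n3
      have e : nS Q (a • p) t = nS Q p (a • t) := LinearMap.ext fun x => by
        simp only [nS_apply, polar_smul_left, smul_eq_mul]
        module
      have ha : a ≠ 0 := fun e => n2 (by simp [e, nS])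
      rw [e] at n2 ⊢
      exact s2 _ _ _ n1 n2 t1 ⟨t1.1, by rw [Q_smul, t2.2.1, mul_zero], by
        simpa [ha] using t2.2.2⟩
    · refine (s2 p r s n1 n3 t1 ⟨t1.1, t2.1, h0⟩).trans ?_
      have n4 : nS Q s p ≠ 0 := by rwa [nS_swap, neg_ne_zero]
      rw [nS_swap, ← neg_one_smul F, rt_smul (neg_ne_zero.2 one_ne_zero)]
      exact s2 s p t n4 n2 (TS.symm ⟨t1.1, t2.1, h0⟩) t2
  rintro _ ⟨_, ⟨n1, p, r, t1, rfl⟩, rfl⟩ _ ⟨_, ⟨n2, s, t, t2, rfl⟩, rfl⟩
  by_cases h0 : polar Q p s = 0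
  · exact s3 p r s t n1 n2 t1 t2 h0
  have e := nS_comb (Q := Q) s t (-polar Q p t / polar Q p s) 1 (-1) 0
  rw [mul_zero, mul_neg, mul_one, sub_neg_eq_add, zero_add, one_smul F (nS Q s t)] at e
  rw [← e] at n2 ⊢
  exact s3 _ _ _ _ n1 n2 t1 (t2.comb' ..) (by
    simp only [polar_add_right, polar_smul_right, smul_eq_mul]; field_simp; ring)

end Cfsg.Agent.H23.RS
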