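import Cfsg.Agent.H23.SpU

/-!
# The fusion system of `PSL_n(q)`, `n ≥ 3`, in the defining characteristic is simple
-/

set_option autoImplicit false

namespace Cfsg.Agent.H23

open Cfsg Subgroup Module
open scoped commutatorElement

variable {F V : Type*} [Field F] [AddCommGroup V] [Module F V] [FiniteDimensional F V] {p : ℕ}

local notation "SLV" => SpecialLinearGroup F V

theorem sl_ext {g h : SLV} (H : ∀ x, g.1 x = h.1 x) : g = h := Subtype.ext (LinearEquiv.ext H)

@[simp] theorem sl_mul (g h : SLV) (x : V) : (g * h).1 x = g.1 (h.1 x) := rfl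

@[simp] theorem sl_one (x : V) : (1 : SLV).1 x = x := rfl

@[simp] theorem sl_inv_app (g : SLV) (x : V) : (g⁻¹).1 (g.1 x) = x := g.1.symm_apply_apply x

@[simp] theorem sl_app_inv (g : SLV) (x : V) : g.1 ((g⁻¹).1 x) = x := g.1.apply_symm_apply x

theorem sl_inv_eq {g : SLV} {x y : V} (h : g.1 x = y) : (g⁻¹).1 y = x := by rw [← h, sl_inv_app]

theorem sl_pow_app (g : SLV) {x : V} (h : g.1 (g.1 x - x) = g.1 x - x) (n : ℕ) : (g ^ n).1 x = x + (n : F) • (g.1 x - x) := by
  induction n with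
  | zero => simp
  | succ n ih => rw [pow_succ', sl_mul, ih, map_add, map_smul, h]; push_cast; module

theorem sl_fix_of_smul [Fact p.Prime] [CharP F p] {g : SLV} {x : V} {a : F} (h : g.1 x = a • x) {k : ℕ}
    (hk : g ^ p ^ k = 1) : g.1 x = x := by
  by_cases h0 : x = 0
  · simp [h0]
  have : ∀ n : ℕ, (g ^ n).1 x = a ^ n • x := fun n => by
    induction n with
    | zero => simp
    | succ n ih => rw [pow_succ', sl_mul, ih, map_smul, h, smul_smul, pow_succ]
  have := this (p ^ k)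
  rw [hk] at this
  have e : a ^ p ^ k = 1 := smul_left_injective F h0 (by simpa using this.symm)
  rw [h, eq_one_of_pow_pp e, one_smul]

open Classical in
/-- transvections -/
noncomputable def trS (v : V) (φ : Dual F V) : SLV :=
  if h : φ v = 0 then ⟨LinearEquiv.transvection h, LinearEquiv.transvection.det_eq_one h⟩ else 1

theorem trS_app {v : V} {φ : Dual F V} (h : φ v = 0) (x : V) : (trS v φ).1 x = x + φ x • v := by
  rw [trS, dif_pos h]; rfl

theorem trS_of_ne {v : V} {φ : Dual F V} (h : φ v ≠ 0) : trS v φ = 1 := dif_neg h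

theorem trS_fix {v x : V} {φ : Dual F V} (h : φ x = 0) : (trS v φ).1 x = x := by
  by_cases h0 : φ v = 0
  · rw [trS_app h0, h, zero_smul, add_zero]
  · rw [trS_of_ne h0]; rfl

theorem trS_sub_mem {v : V} {W : Submodule F V} (hv : v ∈ W) (φ : Dual F V) (x : V) : (trS v φ).1 x - x ∈ W := by
  by_cases h0 : φ v = 0
  · rw [trS_app h0, add_sub_cancel_left]; exact W.smul_mem _ hv
  · rw [trS_of_ne h0]; simp

theorem conj_trS (g : SLV) (v : V) (φ : Dual F V) : g * trS v φ * g⁻¹ = trS (g.1 v) (φ ∘ₗ (g⁻¹).1.toLinearMap) := by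
  by_cases h0 : φ v = 0
  · refine sl_ext fun x => ?_
    rw [sl_mul, sl_mul, trS_app h0, trS_app (by simpa using h0), map_add, map_smul, sl_app_inv]; rfl
  · rw [trS_of_ne h0, trS_of_ne (by simpa using h0), mul_one, mul_inv_cancel]

theorem trS_mul {v : V} {φ ψ : Dual F V} (h : φ v = 0) (h' : ψ v = 0) : trS v φ * trS v ψ = trS v (φ + ψ) :=
  sl_ext fun x => by
    rw [sl_mul, trS_app h, trS_app h', trS_app (by simp [h, h'])]
    simp only [map_add, map_smul, h, LinearMap.add_apply]; module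

theorem exists_dual {W : Submodule F V} {v : V} (hv : v ∉ W) : ∃ φ : Dual F V, φ v = 1 ∧ ∀ w ∈ W, φ w = 0 := by
  obtain ⟨φ, h1, h2⟩ := Submodule.exists_dual_map_eq_bot_of_notMem hv inferInstance
  refine ⟨(φ v)⁻¹ • φ, by simp [h1], fun w hw => ?_⟩
  have : φ w = 0 := by simpa using h2.le (Submodule.mem_map_of_mem hw)
  simp [this]

/-- the unipotent radical of the stabilizer of a subspace -/
def QL (W : Submodule F V) : Subgroup SLV where
  carrier := {g | (∀ w ∈ W, g.1 w = w) ∧ ∀ x, g.1 x - x ∈ W}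
  one_mem' := ⟨fun _ _ => rfl, fun x => by simp⟩
  mul_mem' {a b} ha hb := ⟨fun w hw => by rw [sl_mul, hb.1 w hw, ha.1 w hw], fun x => by
    have : (a * b).1 x - x = a.1 (b.1 x - x) + (a.1 x - x) := by rw [sl_mul, map_sub]; abel
    rw [this, ha.1 _ (hb.2 x)]
    exact add_mem (hb.2 x) (ha.2 x)⟩
  inv_mem' {a} ha := by
    have h : ∀ w ∈ W, (a⁻¹).1 w = w := fun w hw => sl_inv_eq (ha.1 w hw)
    refine ⟨h, fun x => ?_⟩
    have := h _ (ha.2 x)
    rw [map_sub, sl_inv_app] at this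
    rw [← neg_sub, this]
    exact neg_mem (ha.2 x)

theorem pgroup_QL [Fact p.Prime] [CharP F p] {W : Submodule F V} : IsPGroup p (QL W) := by
  rintro ⟨g, hg⟩
  refine ⟨1, Subtype.ext (sl_ext fun x => ?_)⟩
  change (g ^ p ^ 1).1 x = x
  rw [pow_one, sl_pow_app _ (hg.1 _ (hg.2 x)), CharP.cast_eq_zero, zero_smul, add_zero]

theorem trS_mem_QL {W : Submodule F V} {v : V} (hv : v ∈ W) {φ : Dual F V} (h : ∀ w ∈ W, φ w = 0) : trS v φ ∈ QL W :=
  ⟨fun w hw => trS_fix (h w hw), trS_sub_mem hv φ⟩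

theorem trS_mem_Q1 (v : V) (φ : Dual F V) : trS v φ ∈ QL (F ∙ v) := by
  by_cases h0 : φ v = 0
  · refine trS_mem_QL (Submodule.mem_span_singleton_self v) fun w hw => ?_
    obtain ⟨a, rfl⟩ := Submodule.mem_span_singleton.1 hw
    simp [h0]
  · rw [trS_of_ne h0]; exact one_mem _

theorem trS_pow [Fact p.Prime] [CharP F p] (v : V) (φ : Dual F V) : ∃ k, trS v φ ^ p ^ k = 1 := by
  obtain ⟨k, hk⟩ := pgroup_QL (p := p) ⟨_, trS_mem_Q1 v φ⟩
  exact ⟨k, congrArg Subtype.val hk⟩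

instance finite_SLV [Finite F] : Finite SLV := by
  haveI : Finite V := Module.finite_of_finite F
  exact Finite.of_injective (fun g : SLV => (g.1 : V → V)) fun _ _ h => sl_ext (congrFun h)

theorem mem_nm_QL [Finite F] {W : Submodule F V} {g : SLV} (h : ∀ w ∈ W, g.1 w ∈ W) : g ∈ normalizer (QL W : Set SLV) := by
  have h1 : W.map g.1.toLinearMap = W :=
    Submodule.eq_of_le_of_finrank_eq (by rintro _ ⟨w, hw, rfl⟩; exact h w hw) (LinearEquiv.finrank_map_eq _ _)
  refine mem_normalizer_fintype fun y hy => ⟨fun w hw => ?_, fun x => ?_⟩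
  · obtain ⟨w, hw', rfl⟩ := h1.ge hw
    change g.1 (y.1 ((g⁻¹).1 (g.1 w))) = g.1 w
    rw [sl_inv_app, hy.1 w hw']
  · have := h _ (hy.2 ((g⁻¹).1 x))
    rwa [map_sub, sl_app_inv] at this

theorem trS_PE [Fact p.Prime] [CharP F p] [Finite F] {W : Submodule F V} {v : V} {φ : Dual F V}
    (h : v ∈ W ∨ ∀ w ∈ W, φ w = 0) : trS v φ ∈ PE p (QL W) := by
  refine mem_PE (mem_nm_QL fun w hw => ?_) (trS_pow v φ).choose_spec
  rcases h with h | h
  · simpa using add_mem (trS_sub_mem h φ w) hw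
  · rwa [trS_fix (h w hw)]

theorem fix_of_comm_trS [Fact p.Prime] [CharP F p] {x : SLV} {k : ℕ} (hk : x ^ p ^ k = 1) {v y : V} {φ : Dual F V} (h : φ v = 0)
    (hy : φ y = 1) (H : x * trS v φ * x⁻¹ = trS v φ) : x.1 v = v := by
  have := congrArg (fun g : SLV => g.1 (x.1 y)) H
  simp only [sl_mul, sl_inv_app, trS_app h, hy, one_smul, map_add, add_right_inj] at this
  exact sl_fix_of_smul this hk

theorem nc_QL [Fact p.Prime] [CharP F p] [Finite F] {W : Submodule F V} {e y : V} (he : e ∈ W) (h0 : e ≠ 0) (hy : y ∉ W)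
    (S : Sylow p SLV) (hS : ∀ s ∈ S, ∀ w ∈ W, s.1 w ∈ W) : NC ⊥ S (QL W) := by
  have hn : (S : Subgroup SLV) ≤ normalizer (QL W : Set SLV) := fun s hs => mem_nm_QL (hS s hs)
  refine ⟨le_sylow_of_nm S pgroup_QL hn, hn, fun x hx H => mem_sup_left ?_⟩
  replace H : ∀ y ∈ QL W, x * y * x⁻¹ = y := fun y hy => mul_inv_eq_one.1 (mem_bot.1 (H y hy))
  obtain ⟨k, hk⟩ := S.isPGroup' ⟨x, hx⟩
  obtain ⟨φ, a, b⟩ := exists_dual hy
  have h1 : ∀ w ∈ W, x.1 w = w := fun w hw =>
    fix_of_comm_trS (congrArg Subtype.val hk) (b w hw) a (H _ (trS_mem_QL hw b))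
  refine ⟨h1, fun u => ?_⟩
  by_contra hu
  obtain ⟨ψ, a, b⟩ := exists_dual hu
  have := congrArg (fun g : SLV => g.1 (x.1 u)) (H _ (trS_mem_QL he b))
  simp only [sl_mul, sl_inv_app, trS_app (b e he), map_add, map_smul, h1 e he, add_right_inj] at this
  rw [map_sub, ← smul_left_injective F h0 this, sub_self] at a
  exact zero_ne_one a

theorem exists_fixed_mod [Fact p.Prime] [CharP F p] [Finite F] {P : Subgroup SLV} (hP : IsPGroup p P) {W : Submodule F V}
    (hW : W ≠ ⊤) (h : ∀ s ∈ P, ∀ w ∈ W, s.1 w ∈ W) : ∃ x ∉ W, ∀ s ∈ P, s.1 x - x ∈ W := by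
  haveI : Finite V := Module.finite_of_finite F
  letI : MulAction P (V ⧸ W) :=
    { smul := fun g => W.mapQ W g.1.1.toLinearMap (h g.1 g.2)
      one_smul := fun x => by obtain ⟨x, rfl⟩ := W.mkQ_surjective x; rfl
      mul_smul := fun _ _ x => by obtain ⟨x, rfl⟩ := W.mkQ_surjective x; rfl }
  haveI : Nontrivial (V ⧸ W) := Submodule.Quotient.nontrivial_iff.2 hW
  haveI : Finite (V ⧸ W) := Module.finite_of_finite F
  obtain ⟨x, hx, hx0⟩ := hP.exists_fixed_point_of_prime_dvd_card_of_fixed_point (V ⧸ W) (a := 0) (by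
      haveI := Fintype.ofFinite F
      obtain ⟨n, -, hn⟩ := FiniteField.card F p
      rw [Module.natCard_eq_pow_finrank (K := F), Nat.card_eq_fintype_card, hn]
      exact dvd_pow (dvd_pow_self _ n.ne_zero) Module.finrank_pos.ne')
    (fun g => map_zero (W.mapQ W g.1.1.toLinearMap (h g.1 g.2)))
  obtain ⟨x, rfl⟩ := W.mkQ_surjective x
  exact ⟨x, fun e => hx0 ((Submodule.Quotient.mk_eq_zero W).2 e).symm, fun s hs => (Submodule.Quotient.eq W).1 (hx ⟨s, hs⟩)⟩

theorem mem_sup_line {W : Submodule F V} {x y : V} : y ∈ W ⊔ F ∙ x ↔ ∃ w ∈ W, ∃ a : F, y = w + a • x := by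
  simp only [Submodule.mem_sup, Submodule.mem_span_singleton]
  exact ⟨fun ⟨w, hw, _, ⟨a, rfl⟩, e⟩ => ⟨w, hw, a, e.symm⟩, fun ⟨w, hw, a, e⟩ => ⟨w, hw, _, ⟨a, rfl⟩, e.symm⟩⟩

theorem finrank_lt_sup {W : Submodule F V} {x : V} (h : x ∉ W) : finrank F W < finrank F ↥(W ⊔ F ∙ x) :=
  Submodule.finrank_lt_finrank_of_lt (lt_of_le_of_ne le_sup_left fun e =>
    h (e ▸ Submodule.mem_sup_right (Submodule.mem_span_singleton_self x)))

theorem sylow_le_of_trS [Fact p.Prime] [CharP F p] [Finite F] (S : Sylow p SLV) {T : Subgroup SLV}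
    (h : ∀ v φ, trS v φ ∈ S → trS v φ ∈ T) : (S : Subgroup SLV) ≤ T := by
  have key : ∀ (n : ℕ) (W : Submodule F V), finrank F V - finrank F W = n → (∀ s ∈ S, ∀ w ∈ W, s.1 w ∈ W) →
      ∀ g ∈ S, (∀ w ∈ W, g.1 w = w) → g ∈ T := by
    intro n
    induction n using Nat.strong_induction_on with
    | _ n ih =>
    intro W hn hW g hg hf
    by_cases ht : W = ⊤
    · rw [show g = 1 from sl_ext fun x => hf x (ht ▸ trivial)]; exact one_mem _
    obtain ⟨x, hx, hx'⟩ := exists_fixed_mod S.isPGroup' ht hW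
    obtain ⟨φ, a, b⟩ := exists_dual hx
    have t : trS (g.1 x - x) φ ∈ S :=
      le_sylow_of_nm S pgroup_QL (fun s hs => mem_nm_QL (hW s hs)) (trS_mem_QL (hx' g hg) b)
    refine (Subgroup.mul_mem_cancel_left _ (inv_mem (h _ _ t))).1 (ih _ ?_ (W ⊔ F ∙ x) rfl (fun s hs y hy => ?_) _
      (mul_mem (inv_mem t) hg) fun y hy => ?_)
    · have := finrank_lt_sup hx
      have := Submodule.finrank_le (W ⊔ F ∙ x)
      omega
    · obtain ⟨w, hw, c, rfl⟩ := mem_sup_line.1 hy
      refine mem_sup_line.2 ⟨s.1 w + c • (s.1 x - x), add_mem (hW s hs w hw) (W.smul_mem _ (hx' s hs)), c, ?_⟩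
      rw [map_add, map_smul]; module
    · obtain ⟨w, hw, c, rfl⟩ := mem_sup_line.1 hy
      refine sl_inv_eq (y := g.1 _) ?_
      rw [trS_app (b _ (hx' g hg)), map_add φ, map_smul, b w hw, a, map_add g.1, map_smul, hf w hw]; module
  exact fun g hg => key _ ⊥ rfl (fun s _ w hw => by simp_all) g hg fun w hw => by simp_all

/-- the group generated by the transvections fixing `W` pointwise -/
def TW (W : Submodule F V) : Subgroup SLV := closure {g | ∃ (v : V) (φ : Dual F V), (∀ w ∈ W, φ w = 0) ∧ g = trS v φ}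

theorem TW_fix {W : Submodule F V} {g : SLV} (hg : g ∈ TW W) : ∀ w ∈ W, g.1 w = w := by
  refine closure_induction (p := fun g _ => ∀ w ∈ W, g.1 w = w) ?_ (fun _ _ => rfl) (fun a b _ _ ha hb w hw => ?_)
    (fun a _ ha w hw => sl_inv_eq (ha w hw)) hg
  · rintro _ ⟨v, φ, h, rfl⟩ w hw; exact trS_fix (h w hw)
  · rw [sl_mul, hb w hw, ha w hw]

theorem exists_TW_of_notMem {W : Submodule F V} {x y : V} (hx : x ∉ W) (hy : y ∉ W ⊔ F ∙ x) : ∃ g ∈ TW W, g.1 y = x := by
  obtain ⟨φ, a, b⟩ := exists_dual (W := W ⊔ F ∙ (x - y)) (v := y) fun h => by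
    obtain ⟨w, hw, c, e⟩ := mem_sup_line.1 h
    by_cases hc : 1 + c = 0
    · refine hx ?_
      rw [show x = w by rw [show c = -1 by linear_combination hc] at e; linear_combination (norm := module) e]
      exact hw
    · refine hy (mem_sup_line.2 ⟨(1 + c)⁻¹ • w, W.smul_mem _ hw, (1 + c)⁻¹ * c, ?_⟩)
      refine smul_right_injective V hc ?_
      simp only [smul_add, smul_smul, mul_inv_cancel₀ hc, mul_inv_cancel_left₀ hc]
      linear_combination (norm := module) e
  refine ⟨trS (x - y) φ, subset_closure ⟨_, _, fun w hw => b w (Submodule.mem_sup_left hw), rfl⟩, ?_⟩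
  rw [trS_app (b _ (Submodule.mem_sup_right (Submodule.mem_span_singleton_self _))), a]; module

theorem exists_TW {W : Submodule F V} {x y : V} (hx : x ∉ W) (hy : y ∉ W) (ht : W ⊔ F ∙ x ≠ ⊤) : ∃ g ∈ TW W, g.1 y = x := by
  by_cases h : y ∈ W ⊔ F ∙ x
  swap
  · exact exists_TW_of_notMem hx h
  obtain ⟨z, hz⟩ : ∃ z, z ∉ W ⊔ F ∙ x := by
    by_contra! H
    exact ht (eq_top_iff.2 fun z _ => H z)
  obtain ⟨g, hg, e⟩ := exists_TW_of_notMem hx hz
  obtain ⟨g', hg', e'⟩ := exists_TW_of_notMem hy (y := z) fun H =>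
    hz (sup_le le_sup_left ((Submodule.span_singleton_le_iff_mem _ _).2 h) H)
  exact ⟨g * g'⁻¹, mul_mem hg (inv_mem hg'), by rw [sl_mul, sl_inv_eq e', e]⟩

theorem mem_TW (W : Submodule F V) {g : SLV} (hf : ∀ w ∈ W, g.1 w = w) : g ∈ TW W := by
  have key : ∀ (n : ℕ) (W : Submodule F V), finrank F V - finrank F W = n → ∀ g : SLV, (∀ w ∈ W, g.1 w = w) → g ∈ TW W := by
    intro n
    induction n using Nat.strong_induction_on with
    | _ n ih =>
    intro W hn g hf
    by_cases ht : W = ⊤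
    · rw [show g = 1 from sl_ext fun x => hf x (ht ▸ trivial)]; exact one_mem _
    obtain ⟨x, hx⟩ : ∃ x, x ∉ W := by
      by_contra! H
      exact ht (eq_top_iff.2 fun z _ => H z)
    by_cases h1 : W ⊔ F ∙ x = ⊤
    · obtain ⟨φ, a, b⟩ := exists_dual hx
      have e : g.1.toLinearMap = LinearMap.transvection φ (g.1 x - x) := LinearMap.ext fun y => by
        obtain ⟨w, hw, c, rfl⟩ := mem_sup_line.1 (h1.ge (Submodule.mem_top (x := y)))
        rw [LinearMap.transvection.apply, map_add φ, map_smul, b w hw, a, LinearEquiv.coe_coe, map_add, map_smul, hf w hw]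
        module
      have d := congrArg Units.val g.2
      rw [LinearEquiv.coe_det, e, LinearMap.transvection.det, Units.val_one, add_eq_left] at d
      exact subset_closure ⟨g.1 x - x, φ, b, sl_ext fun y => by rw [trS_app d]; exact LinearMap.congr_fun e y⟩
    obtain ⟨k, hk, e⟩ := exists_TW hx (y := g.1 x) (fun h => hx (by
      have := hf _ h
      rwa [← g.1.injective this])) h1
    refine (Subgroup.mul_mem_cancel_left _ hk).1 (closure_mono ?_ (ih _ ?_ (W ⊔ F ∙ x) rfl _ fun y hy => ?_))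
    · rintro _ ⟨v, φ, h, rfl⟩
      exact ⟨v, φ, fun w hw => h w (Submodule.mem_sup_left hw), rfl⟩
    · have := finrank_lt_sup hx
      have := Submodule.finrank_le (W ⊔ F ∙ x)
      omega
    · obtain ⟨w, hw, c, rfl⟩ := mem_sup_line.1 hy
      rw [sl_mul, map_add, map_smul, hf w hw, map_add, map_smul, e, TW_fix hk w hw]
  exact key _ W rfl g hf

theorem ne_top_of_finrank {W : Submodule F V} (h : finrank F W < finrank F V) : W ≠ ⊤ := by
  rintro rfl; simp at h

theorem finrank_sup_le (W : Submodule F V) (x : V) : finrank F ↥(W ⊔ F ∙ x) ≤ finrank F W + 1 :=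
  (Submodule.finrank_add_le_finrank_add_finrank _ _).trans (by
    have := finrank_span_le_card (R := F) ({x} : Set V)
    simp only [Set.toFinset_singleton, Finset.card_singleton] at this
    omega)

theorem simple_SLV [Fact p.Prime] [CharP F p] [Finite F] (h3 : 3 ≤ finrank F V) {H : Type*} [Group H] [Finite H] (π : SLV →* H)
    (hπ : Function.Surjective π) (hZ : π.ker ≤ center SLV) (S' : Sylow p H) :
    (groupFusionSystem (S' : Subgroup H)).IsSimple p := by
  obtain ⟨S⟩ : Nonempty (Sylow p SLV) := inferInstance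
  have ex : ∀ W : Submodule F V, finrank F W < finrank F V → ∃ z, z ∉ W := fun W hW => by
    by_contra! H
    exact ne_top_of_finrank hW (eq_top_iff.2 fun z _ => H z)
  have ex1 : ∀ x : V, finrank F (F ∙ x) ≤ 1 := fun x => by
    have := finrank_sup_le (⊥ : Submodule F V) x
    rwa [bot_sup_eq, finrank_bot] at this
  have ex2 : ∀ x y : V, ∃ z, z ∉ (F ∙ x) ⊔ F ∙ y := fun x y => ex _ (by have := finrank_sup_le (F ∙ x) y; have := ex1 x; omega)
  obtain ⟨e, he0, hf⟩ := exists_fixed_mod S.isPGroup' (W := ⊥) (ne_top_of_finrank (by rw [finrank_bot]; omega))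
    (fun s _ w hw => by simp_all)
  replace he0 : e ≠ 0 := by simpa using he0
  replace hf : ∀ s ∈ S, s.1 e = e := fun s hs => sub_eq_zero.1 (hf s hs)
  have m1 := Submodule.mem_span_singleton_self (R := F) e
  have s1 : ∀ s ∈ S, ∀ w ∈ F ∙ e, s.1 w ∈ F ∙ e := fun s hs w hw => by
    obtain ⟨a, rfl⟩ := Submodule.mem_span_singleton.1 hw
    rwa [map_smul, hf s hs]
  obtain ⟨e', he', hf'⟩ := exists_fixed_mod S.isPGroup' (ne_top_of_finrank (by have := ex1 e; omega)) s1
  obtain ⟨z, hz⟩ := ex2 e e'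
  have n1 : NC ⊥ S (QL (F ∙ e)) := nc_QL m1 he0 he' S s1
  have m2 : e ∈ (F ∙ e) ⊔ F ∙ e' := Submodule.mem_sup_left m1
  have m3 : e' ∈ (F ∙ e) ⊔ F ∙ e' := Submodule.mem_sup_right (Submodule.mem_span_singleton_self _)
  have n2 : NC ⊥ S (QL ((F ∙ e) ⊔ F ∙ e')) := nc_QL m2 he0 hz S fun s hs y hy => by
    obtain ⟨w, hw, c, rfl⟩ := mem_sup_line.1 hy
    refine mem_sup_line.2 ⟨s.1 w + c • (s.1 e' - e'), add_mem (s1 s hs w hw) (Submodule.smul_mem _ _ (hf' s hs)), c, ?_⟩
    rw [map_add, map_smul]; module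
  obtain ⟨φ₂, a₂, b₂⟩ := exists_dual he'
  replace b₂ := b₂ e m1
  refine simple_of_cover' π hπ hZ S (eq_bot_iff.2 fun g hg => ?_) (fun H => ?_) (fun T hT h0 hs => ?_) ?_ S'
  · obtain ⟨k, hk⟩ := S.isPGroup' ⟨g, hg.1⟩
    refine mem_bot.2 (sl_ext fun x => ?_)
    obtain ⟨y, hy⟩ := ex (F ∙ x) (by have := ex1 x; omega)
    obtain ⟨φ, a, b⟩ := exists_dual hy
    exact fix_of_comm_trS (congrArg Subtype.val hk) (b x (Submodule.mem_span_singleton_self _)) a
      (by rw [← mem_center_iff.1 (hZ hg.2), mul_inv_cancel_right])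
  · have := congrArg (fun g : SLV => g.1 e') (mem_bot.1 (H ▸ n1.le (trS_mem_Q1 e φ₂)))
    simp [trS_app b₂, a₂, he0] at this
  · have cj : ∀ {φ : Dual F V} (v : V) (ψ : Dual F V), φ e = 0 → trS e φ ∈ T → ψ e = 0 → ψ v = 0 → φ v = 1 → trS e ψ ∈ T := by
      intro φ v ψ a b c d f
      have h1 := conj_trS (trS v ψ)⁻¹ e φ
      have h2 : (trS v ψ)⁻¹.1 e = e := sl_inv_eq (trS_fix c)
      have h3 : φ ∘ₗ (trS v ψ)⁻¹⁻¹.1.toLinearMap = φ + ψ := LinearMap.ext fun x => by
        rw [inv_inv]; change φ ((trS v ψ).1 x) = _; simp [trS_app d, f]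
      rw [h2, h3] at h1
      have h4 := hs _ _ b (h1 ▸ n1.le (trS_mem_Q1 _ _))
      rw [h1, ← trS_mul a c] at h4
      exact (Subgroup.mul_mem_cancel_left _ b).1 h4
    have key : ∀ ψ : Dual F V, trS e ψ ∈ T := by
      obtain ⟨φ, x, a, b, c⟩ : ∃ (φ : Dual F V) (x : V), φ e = 0 ∧ φ x = 1 ∧ trS e φ ∈ T := by
        obtain ⟨z, hz, o, hc⟩ := hs.exists_central S.isPGroup' hT h0
        have := n1.cent z (hT hz) fun y hy => mem_bot.2 (commutatorElement_eq_one_iff_mul_comm.2 (hc y (n1.le hy)).symm)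
        rw [sup_bot_eq] at this
        obtain ⟨θ, t1, -⟩ := exists_dual (F := F) (W := ⊥) (v := e) (by simpa using he0)
        have h1 : ∀ x, z.1 x = x + (θ (z.1 x - x)) • e := fun x => by
          obtain ⟨a, ha⟩ := Submodule.mem_span_singleton.1 (this.2 x)
          rw [← ha, map_smul, t1, smul_eq_mul, mul_one, ha]; abel
        let φ : Dual F V := θ ∘ₗ (z.1.toLinearMap - LinearMap.id)
        have h2 : φ e = 0 := by change θ (z.1 e - e) = 0; rw [this.1 e m1, sub_self, map_zero]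
        have h3 : z = trS e φ := sl_ext fun x => by rw [trS_app h2]; exact h1 x
        obtain ⟨x, hx⟩ : ∃ x, φ x ≠ 0 := by
          by_contra! H
          rw [show z = 1 from sl_ext fun x => by rw [h3, trS_fix (H x)]; rfl, orderOf_one] at o
          exact (Fact.out : p.Prime).one_lt.ne o
        exact ⟨φ, (φ x)⁻¹ • x, h2, by simp [hx], h3 ▸ hz⟩
      obtain ⟨y, hy⟩ := ex2 e x
      obtain ⟨ψ₁, d, f⟩ := exists_dual hy
      have f1 := f e (Submodule.mem_sup_left m1)
      have f2 := f x (Submodule.mem_sup_right (Submodule.mem_span_singleton_self _))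
      intro ψ
      by_cases h : ψ e = 0
      swap
      · rw [trS_of_ne h]; exact one_mem _
      rw [show ψ = (ψ - ψ x • φ) + ψ x • φ by abel, ← trS_mul (by simp [h, a]) (by simp [a])]
      exact mul_mem (cj x _ a c (by simp [h, a]) (by simp [b]) b)
        (cj (y - φ y • x) _ f1 (cj x _ a c f1 f2 b) (by simp [a]) (by simp [b]) (by simp [d, f2]))
    refine sylow_le_of_trS S fun v φ hv => ?_
    by_cases v0 : v = 0
    · rw [show trS v φ = 1 from sl_ext fun y => by rw [v0, trS_app (map_zero φ)]; simp]; exact one_mem _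
    obtain ⟨g, -, hg⟩ := exists_TW (F := F) (W := ⊥) (x := e) (y := v) (by simpa using he0) (by simpa using v0)
      (by rw [bot_sup_eq]; exact ne_top_of_finrank (by have := ex1 e; omega))
    have := hs g⁻¹ (g * trS v φ * g⁻¹) (by rw [conj_trS, hg]; exact key _)
    rw [show g⁻¹ * (g * trS v φ * g⁻¹) * g⁻¹⁻¹ = trS v φ by group] at this
    exact this hv
  let K : Subgroup SLV :=
    { carrier := {g | g.1 e = e}
      one_mem' := rfl
      mul_mem' := fun {a b} ha hb => by change a.1 (b.1 e) = e; rw [hb, ha]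
      inv_mem' := fun ha => sl_inv_eq ha }
  refine le_goodN_of_two (K := K) (P := normalizer (K : Set SLV)) S n1 n2 hf (fun g hg => ?_) le_normalizer le_rfl fun g hg => ?_
  · refine (closure_le _).2 ?_ (mem_TW (F ∙ e) fun w hw => ?_)
    · rintro _ ⟨v, φ, h, rfl⟩; exact trS_PE (.inr h)
    · obtain ⟨a, rfl⟩ := Submodule.mem_span_singleton.1 hw
      rw [map_smul, show g.1 e = e from hg]
  have x2 : g.1 e ∈ F ∙ e := by
    by_contra H
    obtain ⟨φ, a, b⟩ := exists_dual H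
    have := hf _ (conj_mem_of_mem_normalizer (inv_mem hg) (n1.le (trS_mem_Q1 e φ)))
    rw [sl_mul, sl_mul, inv_inv] at this
    have := congrArg g.1 this
    simp [trS_app (b e m1), a, he0] at this
  obtain ⟨a, ha⟩ := Submodule.mem_span_singleton.1 x2
  have a0 : a ≠ 0 := by
    rintro rfl
    exact he0 (g.1.injective (by rw [← ha, zero_smul, map_zero]))
  obtain ⟨φ₁, a₁, b₁⟩ := exists_dual (W := F ∙ e') (v := e) fun H => by
    obtain ⟨c, rfl⟩ := Submodule.mem_span_singleton.1 H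
    have : c = 0 := by simpa [a₂] using b₂
    simp [this] at he0
  replace b₁ := b₁ e' (Submodule.mem_span_singleton_self _)
  let m : SLV := trS e' ((-a⁻¹) • φ₁) * trS e ((a - 1) • φ₂) * trS e' φ₁
  have hm : m ∈ PE p (QL ((F ∙ e) ⊔ F ∙ e')) := mul_mem (mul_mem (trS_PE (.inl m3)) (trS_PE (.inl m2))) (trS_PE (.inl m3))
  have hm' : m.1 e = a • e := by
    rw [sl_mul, sl_mul, trS_app b₁, trS_app (v := e) (by simp [b₂]), trS_app (by simp [b₁])]
    simp only [map_add, map_smul, LinearMap.smul_apply, a₁, a₂, b₁, b₂, smul_eq_mul]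
    match_scalars <;> field_simp <;> ring
  have hm'' : (m⁻¹).1 e = a⁻¹ • e := sl_inv_eq (by rw [map_smul, hm', smul_smul, inv_mul_cancel₀ a0, one_smul])
  refine ⟨m, ⟨mem_normalizer_fintype fun y hy => ?_, hm⟩, ?_⟩
  · change m.1 (y.1 ((m⁻¹).1 e)) = e
    rw [hm'', map_smul, show y.1 e = e from hy, ← hm'', sl_app_inv]
  · change g.1 ((m⁻¹).1 e) = e
    rw [hm'', map_smul, ← ha, smul_smul, inv_mul_cancel₀ a0, one_smul]

end Cfsg.Agent.H23
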