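import Cfsg.Agent.H23.Simp
import Cfsg.Agent.H12.SBridge

/-!
# The fusion systems of symplectic and unitary groups in the defining characteristic are simple
-/

set_option autoImplicit false

namespace Cfsg.Agent.H23

open Cfsg Subgroup Module
open Cfsg.Agent.H12
open scoped commutatorElement

section
variable {G H : Type*} [Group G] [Group H] {p : ℕ} [Finite G] [Fact p.Prime]

theorem le_sylow_of_nm (S : Sylow p G) {Q : Subgroup G} (hQ : IsPGroup p Q) (h : (S : Subgroup G) ≤ normalizer (Q : Set G)) :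
    Q ≤ S := le_sup_left.trans (S.is_maximal' (hQ.to_sup_of_normal_left' S.isPGroup' h) le_sup_right).le

/-- The criterion for a central quotient by a `p'`-group. -/
theorem simple_of_cover' [Finite H] (π : G →* H) (hπ : Function.Surjective π) (hZ : π.ker ≤ center G) (S : Sylow p G)
    (hd : (S : Subgroup G) ⊓ π.ker = ⊥) (h0 : (S : Subgroup G) ≠ ⊥)
    (h1 : ∀ T ≤ (S : Subgroup G), T ≠ ⊥ → SCl S T → (S : Subgroup G) ≤ T)
    (h2 : normalizer ((S : Subgroup G) : Set G) ≤ GoodN p ⊥ S) (S' : Sylow p H) :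
    (groupFusionSystem (S' : Subgroup H)).IsSimple p := by
  refine simple_of_cover π hπ hZ S (fun h => h0 (by rw [← hd, inf_eq_left.2 h]))
    (fun T hT a _ c => h1 T hT (fun e => a (e ▸ bot_le)) c) (h2.trans ((closure_le _).2 ?_)) S'
  rintro g ⟨hn, hc | ⟨Q, hQ, hg⟩⟩
  · exact mem_goodN_of_cent hn fun x hx => bot_le (a := π.ker) (hc x hx)
  refine NC.mem (Q := Q) ⟨hQ.le, hQ.nm, fun x hx h => ?_⟩ hn hg
  refine (sup_le_sup_left (bot_le (a := π.ker)) Q).trans le_rfl (hQ.cent x hx fun y hy => hd.le ⟨?_, h y hy⟩)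
  exact (S : Subgroup G).mul_mem (mul_mem (mul_mem hx (hQ.le hy)) (inv_mem hx)) (inv_mem (hQ.le hy))

theorem eq_one_of_pow_pp {F : Type*} [Field F] [CharP F p] {a : F} {k : ℕ} (h : a ^ p ^ k = 1) : a = 1 := by
  have := sub_pow_char_pow a 1 k
  rw [h, one_pow, sub_self] at this
  exact sub_eq_zero.1 (pow_eq_zero_iff (pow_pos (Fact.out : p.Prime).pos k).ne' |>.1 this)

end

universe u
variable {F : Type*} {V : Type u} [Field F] [AddCommGroup V] [Module F V] {σ : F →+* F} {B : V →ₛₗ[σ] V →ₗ[F] F}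
  [FiniteDimensional F V] {p : ℕ}

theorem su_ext {g h : SUG B} (H : ∀ x, g.1.1 x = h.1.1 x) : g = h := Subtype.ext (UG_ext H)

@[simp] theorem su_mul (g h : SUG B) (x : V) : (g * h).1.1 x = g.1.1 (h.1.1 x) := rfl

@[simp] theorem su_inv_app (g : SUG B) (x : V) : (g⁻¹).1.1 (g.1.1 x) = x := UG_inv_apply_apply g.1 x

@[simp] theorem su_app_inv (g : SUG B) (x : V) : g.1.1 ((g⁻¹).1.1 x) = x := UG_apply_inv g.1 x

theorem su_pow_app (g : SUG B) {x : V} (h : g.1.1 (g.1.1 x - x) = g.1.1 x - x) (n : ℕ) :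
    (g ^ n).1.1 x = x + (n : F) • (g.1.1 x - x) := by
  induction n with
  | zero => simp
  | succ n ih => rw [pow_succ', su_mul, ih, map_add, map_smul, h]; push_cast; module

theorem su_pow_smul (g : SUG B) {x : V} {a : F} (h : g.1.1 x = a • x) (n : ℕ) : (g ^ n).1.1 x = a ^ n • x := by
  induction n with
  | zero => simp
  | succ n ih => rw [pow_succ', su_mul, ih, map_smul, h, smul_smul, pow_succ]

theorem su_fix_of_smul [Fact p.Prime] [CharP F p] {g : SUG B} {x : V} {a : F} (h : g.1.1 x = a • x) {k : ℕ}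
    (hk : g ^ p ^ k = 1) : g.1.1 x = x := by
  by_cases h0 : x = 0
  · simp [h0]
  have := su_pow_smul g h (p ^ k)
  rw [hk] at this
  have e : a ^ p ^ k = 1 := smul_left_injective F h0 (by simpa using this.symm)
  rw [h, eq_one_of_pow_pp e, one_smul]

theorem conj_rhoS (D : SD B) (g : SUG B) (e u : V) (c : F) :
    g * D.rhoS e u c * g⁻¹ = D.rhoS (g.1.1 e) (g.1.1 u) c := Subtype.ext (conj_rho D g.1 e u c)

/-- the unipotent radical of the stabilizer of a totally isotropic subspace -/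
def QW (B : V →ₛₗ[σ] V →ₗ[F] F) (W : Submodule F V) : Subgroup (SUG B) where
  carrier := {g | (∀ w ∈ W, g.1.1 w = w) ∧ ∀ x ∈ sperp B W, g.1.1 x - x ∈ W}
  one_mem' := ⟨fun _ _ => rfl, fun x _ => by simp⟩
  mul_mem' {a b} ha hb := ⟨fun w hw => by rw [su_mul, hb.1 w hw, ha.1 w hw], fun x hx => by
    have : (a * b).1.1 x - x = a.1.1 (b.1.1 x - x) + (a.1.1 x - x) := by rw [su_mul, map_sub]; abel
    rw [this, ha.1 _ (hb.2 x hx)]
    exact add_mem (hb.2 x hx) (ha.2 x hx)⟩
  inv_mem' {a} ha := by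
    have h : ∀ w ∈ W, (a⁻¹).1.1 w = w := fun w hw => UG_inv_apply_eq (ha.1 w hw)
    refine ⟨h, fun x hx => ?_⟩
    have := h _ (ha.2 x hx)
    rw [map_sub, su_inv_app] at this
    rw [← neg_sub, this]
    exact neg_mem (ha.2 x hx)

theorem pgroup_QW [Fact p.Prime] [CharP F p] {W : Submodule F V} : IsPGroup p (QW B W) := by
  rintro ⟨g, hg⟩
  refine ⟨2, Subtype.ext (su_ext fun x => ?_)⟩
  have h1 : ∀ y ∈ sperp B W, (g ^ p).1.1 y = y := fun y hy => by
    rw [su_pow_app g (hg.1 _ (hg.2 y hy)), CharP.cast_eq_zero, zero_smul, add_zero]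
  have h2 : (g ^ p).1.1 x - x ∈ sperp B W := mem_sperp.2 fun w hw => by
    rw [map_sub, ← UG_map (g ^ p).1 w x, (pow_mem hg p).1 w hw, sub_self]
  change (g ^ p ^ 2).1.1 x = x
  rw [pow_two, pow_mul, su_pow_app _ (h1 _ h2), CharP.cast_eq_zero, zero_smul, add_zero]

theorem mem_nm_QW [Finite (SUG B)] {W : Submodule F V} {g : SUG B} (h : ∀ w ∈ W, g.1.1 w ∈ W) : g ∈ normalizer (QW B W : Set (SUG B)) := by
  have h1 := mem_stabW.1 (mem_stabW_of_mapsTo (B := B) (g := g.1) h)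
  refine mem_normalizer_fintype fun y hy => ⟨fun w hw => ?_, fun x hx => ?_⟩
  · rw [su_mul, su_mul, hy.1 _ ((h1 _).1 (by rwa [su_app_inv])), su_app_inv]
  · have := h _ (hy.2 ((g⁻¹).1.1 x) ((mem_sperp_iff_of_stab h1 _).1 (by rwa [su_app_inv])))
    rwa [map_sub, su_app_inv] at this

theorem rho_mem_QW (D : SD B) {W : Submodule F V} (hW : ∀ u ∈ W, ∀ v ∈ W, B u v = 0) {e u : V} (he : e ∈ W)
    (hu : u ∈ sperp B W) (c : F) : D.rhoS e u c ∈ QW B W := by
  refine ⟨fun w hw => rho_apply_of_perp D c (hW e he w hw) (D.comm0 (mem_sperp.1 hu w hw)), fun x hx => ?_⟩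
  by_cases h : Adm B e u c
  · rw [D.coe_rhoS, rho_apply D h, mem_sperp.1 hx e he, zero_smul, add_zero, add_sub_cancel_left]
    exact W.smul_mem _ he
  · rw [D.coe_rhoS, rho_of_not h]; simp

theorem ti_line {e : V} (he : B e e = 0) : ∀ u ∈ F ∙ e, ∀ v ∈ F ∙ e, B u v = 0 := by
  intro u hu v hv
  obtain ⟨a, rfl⟩ := Submodule.mem_span_singleton.1 hu
  obtain ⟨b, rfl⟩ := Submodule.mem_span_singleton.1 hv
  simp [he]

theorem rho_mem_Q1 (D : SD B) (e u : V) (c : F) : D.rhoS e u c ∈ QW B (F ∙ e) := by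
  by_cases h : Adm B e u c
  · exact rho_mem_QW D (ti_line h.ee) (Submodule.mem_span_singleton_self e) (mem_sperp_singleton.2 h.eu) c
  · rw [show D.rhoS e u c = 1 from Subtype.ext (rho_of_not h)]; exact one_mem _

theorem rho_pow [Fact p.Prime] [CharP F p] (D : SD B) (e u : V) (c : F) : ∃ k, D.rhoS e u c ^ p ^ k = 1 := by
  obtain ⟨k, hk⟩ := pgroup_QW (p := p) ⟨_, rho_mem_Q1 D e u c⟩
  exact ⟨k, congrArg Subtype.val hk⟩

theorem rho_inj (D : SD B) {e f u u' : V} {c c' : F} (h : SP B e f) (a : Adm B e u c) (a' : Adm B e u' c')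
    (H : rho B e u c = rho B e u' c') : u - u' ∈ F ∙ e := by
  have := congrArg (fun g : UG B => g.1 f) H
  simp only [rho_apply D a, rho_apply D a', h.ef, one_smul] at this
  refine Submodule.mem_span_singleton.2 ⟨c' * 1 + B u' f - (c * 1 + B u f), ?_⟩
  linear_combination (norm := module) -this

theorem nc_QW [Fact p.Prime] [CharP F p] [Finite (SUG B)] (D : SD B) {W : Submodule F V} (hW : ∀ u ∈ W, ∀ v ∈ W, B u v = 0) {e f : V}
    (h : SP B e f) (he : e ∈ W) (S : Sylow p (SUG B)) (hS : ∀ s ∈ S, ∀ w ∈ W, s.1.1 w ∈ W) : NC ⊥ S (QW B W) := by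
  have hn : (S : Subgroup (SUG B)) ≤ normalizer (QW B W : Set (SUG B)) := fun s hs => mem_nm_QW (hS s hs)
  refine ⟨le_sylow_of_nm S pgroup_QW hn, hn, fun x hx H => mem_sup_left ?_⟩
  replace H : ∀ y ∈ QW B W, x * y * x⁻¹ = y := fun y hy => mul_inv_eq_one.1 (mem_bot.1 (H y hy))
  obtain ⟨k, hk⟩ := S.isPGroup' ⟨x, hx⟩
  have h1 : ∀ w ∈ W, x.1.1 w = w := fun w hw => by
    obtain ⟨a, ha⟩ := D.exists_smul_of_commute (g := x.1) (hW w hw w hw) (map_one σ) one_ne_zero
      (mul_inv_eq_iff_eq_mul.1 (congrArg Subtype.val (H _ (rho_mem_QW D hW hw (zero_mem _) 1))))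
    exact su_fix_of_smul ha (congrArg Subtype.val hk)
  refine ⟨h1, fun u hu => ?_⟩
  obtain ⟨c, hc⟩ := exists_adm D h.ee (mem_sperp.1 hu e he)
  have h2 := H _ (rho_mem_QW D hW he hu c)
  rw [conj_rhoS, h1 e he] at h2
  have h3 := (adm_conj x.1).2 hc
  rw [h1 e he] at h3
  exact (Submodule.span_singleton_le_iff_mem _ _).2 he (rho_inj D h h3 hc (congrArg Subtype.val h2))

/-- extension from the complement of a hyperbolic pair -/
noncomputable def extS (D : SD B) {e f : V} (h : SP B e f) : SUG (res B (spp B e f)) →* SUG B :=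
  ((extUG D (h.isCompl D)).comp (SUG _).subtype).codRestrict _ fun k => by
    rw [SUG, MonoidHom.mem_ker, MonoidHom.comp_apply, udet_extUG]; exact k.2

theorem extS_inj (D : SD B) {e f : V} (h : SP B e f) : Function.Injective (extS D h) := fun _ _ H =>
  Subtype.ext (extUG_injective D (h.isCompl D) (congrArg Subtype.val H))

theorem extS_fix (D : SD B) {e f : V} (h : SP B e f) (k : SUG (res B (spp B e f))) :
    (extS D h k).1.1 e = e ∧ (extS D h k).1.1 f = f := (h.mem_range_ext D).1 ⟨k.1, rfl⟩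

theorem extS_w (D : SD B) {e f : V} (h : SP B e f) (k : SUG (res B (spp B e f))) (w : spp B e f) :
    (extS D h k).1.1 w = k.1.1 w := extUG_apply_mem D _ k.1 w

theorem extS_rho (D : SD B) {e f : V} (h : SP B e f) (a u : spp B e f) (c : F) :
    extS D h ((h.sd D).rhoS a u c) = D.rhoS a u c := Subtype.ext (extUG_rho D _ a u c)

theorem exists_rho_ext (D : SD B) {e f : V} (h : SP B e f) {g : SUG B} (hg : g.1.1 e = e) :
    ∃ u c k, Adm B e u c ∧ g = D.rhoS e u c * extS D h k := by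
  have h' := h.map g.1
  rw [hg] at h'
  obtain ⟨u, c, a, b⟩ := exists_rho_map D h.ee (x := f) (y := g.1.1 f) (by rw [h.ff, h'.ff]) (by rw [h.ef, h'.ef])
    (by rw [h.ef]; exact one_ne_zero)
  obtain ⟨j, hj⟩ := (h.mem_range_ext D (g := ((D.rhoS e u c)⁻¹ * g).1)).2
    ⟨by rw [su_mul, hg]; exact UG_inv_apply_eq (rho_apply_self D e u c), by rw [su_mul]; exact UG_inv_apply_eq b⟩
  refine ⟨u, c, ⟨j, ?_⟩, a, ?_⟩
  · rw [SUG, MonoidHom.mem_ker, ← udet_extUG D (h.isCompl D), hj]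
    exact ((D.rhoS e u c)⁻¹ * g).2
  · exact inv_mul_eq_iff_eq_mul.1 (Subtype.ext hj.symm)

theorem eq_rho_of_mem_Q1 (D : SD B) {e f : V} (h : SP B e f) {g : SUG B} (hg : g ∈ QW B (F ∙ e)) :
    ∃ (w : spp B e f) (c : F), Adm B e w c ∧ g = D.rhoS e w c := by
  obtain ⟨u, c, k, a, rfl⟩ := exists_rho_ext D h (hg.1 e (Submodule.mem_span_singleton_self e))
  have h1 := (Subgroup.mul_mem_cancel_left _ (rho_mem_Q1 D e u c)).1 hg
  have h2 : k = 1 := su_ext fun w => Subtype.ext (by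
    obtain ⟨b, hb⟩ := Submodule.mem_span_singleton.1 (h1.2 w (mem_sperp_singleton.2 (spp_left w)))
    have := congrArg (B f) hb
    rw [extS_w, map_smul, h.fe D, map_sub, spp_right, spp_right] at this
    rw [show b = 0 by simpa using this, zero_smul, extS_w, eq_comm, sub_eq_zero] at hb
    exact hb)
  obtain ⟨b, w, rfl⟩ := h.exists_eq_of_perp D a.eu
  have a' : Adm B e w c := by simpa using a.add_smul D (-b)
  refine ⟨w, c + (b + σ b), ⟨a.ee, a'.eu, ?_⟩, ?_⟩
  · rw [← a'.cc, map_add, map_add, D.invol]; ring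
  · rw [h2, map_one, mul_one]; exact Subtype.ext (rho_add_smul D a' b)

theorem closure_rhoS (D : SD B) (hN : NS σ) : closure {g : SUG B | ∃ e u c, g = D.rhoS e u c} = ⊤ := by
  have := closure_preimage_eq_top (H := SUG B) (S := {g | ∃ e u c, g = rho B e u c}) (D.EG_eq_SUG hN)
  refine eq_top_iff.2 (this.ge.trans (closure_mono ?_))
  rintro g ⟨e, u, c, h⟩
  exact ⟨e, u, c, Subtype.ext h⟩

theorem exists_fixed_iso [Fact p.Prime] [CharP F p] [Finite F] (D : SD B) (h2 : 2 ≤ finrank F V) {P : Subgroup (SUG B)}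
    (hP : IsPGroup p P) : ∃ e, e ≠ 0 ∧ B e e = 0 ∧ ∀ g ∈ P, g.1.1 e = e := by
  haveI : Finite V := Module.finite_of_finite F
  letI : MulAction P {x : V // B x x = 0} :=
    { smul := fun g x => ⟨g.1.1.1 x, by rw [UG_map]; exact x.2⟩
      one_smul := fun _ => rfl
      mul_smul := fun _ _ _ => rfl }
  obtain ⟨e, he0, he⟩ := D.exists_iso D.ns h2
  obtain ⟨f, h⟩ := D.exists_SP he he0
  have hF : p ∣ Nat.card F := by
    haveI := Fintype.ofFinite F
    obtain ⟨n, -, hn⟩ := FiniteField.card F p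
    rw [Nat.card_eq_fintype_card, hn]; exact dvd_pow_self _ n.ne_zero
  have hq : p ∣ q0 σ := by
    by_cases hσ : σ = RingHom.id F
    · rw [hσ, q0_id]; exact hF
    · exact (Fact.out : p.Prime).dvd_of_dvd_pow (card_eq_q0_sq hσ D.invol ▸ hF)
  obtain ⟨x, hx, hx0⟩ := hP.exists_fixed_point_of_prime_dvd_card_of_fixed_point {x : V // B x x = 0}
    (a := ⟨0, by simp⟩) (by
      change p ∣ niso B
      rw [h.niso_eq D]
      exact dvd_add (hF.mul_right _) ((hq.mul_left _).mul_left _)) (fun g => Subtype.ext (map_zero g.1.1.1))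
  exact ⟨x, fun e => hx0 (Subtype.ext e.symm), x.2, fun g hg => congrArg Subtype.val (hx ⟨g, hg⟩)⟩

theorem extS_nm [Finite (SUG B)] (D : SD B) {e f : V} (h : SP B e f) (k : SUG (res B (spp B e f))) :
    extS D h k ∈ normalizer (QW B (F ∙ e) : Set (SUG B)) := mem_nm_QW fun w hw => by
  obtain ⟨a, rfl⟩ := Submodule.mem_span_singleton.1 hw
  rwa [map_smul, (extS_fix D h k).1]

theorem nm_Q1 [Finite (SUG B)] {e : V} {g : SUG B} {a : F} (h : g.1.1 e = a • e) : g ∈ normalizer (QW B (F ∙ e) : Set (SUG B)) :=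
  mem_nm_QW fun w hw => by
    obtain ⟨b, rfl⟩ := Submodule.mem_span_singleton.1 hw
    rw [map_smul, h]
    exact Submodule.smul_mem _ _ (Submodule.smul_mem _ _ (Submodule.mem_span_singleton_self e))

instance finite_SUG [Finite F] : Finite (SUG B) := by
  haveI : Finite V := Module.finite_of_finite F
  exact Finite.of_injective (fun g : SUG B => (g.1.1 : V → V)) fun _ _ h => su_ext (congrFun h)

theorem exists_eichler_gen [Fact p.Prime] [CharP F p] [Finite F] (n : ℕ) : ∀ {V : Type u} [AddCommGroup V] [Module F V]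
    [FiniteDimensional F V] {B : V →ₛₗ[σ] V →ₗ[F] F} (D : SD B), finrank F V = n → ∀ P : Subgroup (SUG B), IsPGroup p P →
    ∃ A : Set (SUG B), (∀ g ∈ A, ∃ e u c, g = D.rhoS e u c) ∧ IsPGroup p (closure A) ∧ P ≤ closure A := by
  induction n using Nat.strong_induction_on with
  | _ n ih =>
  intro V _ _ _ B D hn P hP
  by_cases h2 : finrank F V ≤ 1
  · refine ⟨∅, by simp, by rw [Subgroup.closure_empty]; exact IsPGroup.of_bot, fun g _ => ?_⟩
    rw [show g = 1 from Subtype.ext (eq_one_of_mem_SUG_of_finrank_le h2 g.2)]; exact one_mem _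
  obtain ⟨e, he0, he, hf⟩ := exists_fixed_iso D (by omega) hP
  obtain ⟨f, h⟩ := D.exists_SP he he0
  have h1 : IsPGroup p ↥(QW B (F ∙ e) ⊔ P) :=
    pgroup_QW.to_sup_of_normal_left' hP fun g hg => nm_Q1 (a := 1) (by rw [hf g hg, one_smul])
  obtain ⟨A, a, b, c⟩ := ih _ (by have := h.finrank_spp D; omega) (h.sd D) rfl _ (h1.comap_of_injective _ (extS_inj D h))
  have e1 : closure ((QW B (F ∙ e) : Set (SUG B)) ∪ extS D h '' A) = QW B (F ∙ e) ⊔ (closure A).map (extS D h) := by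
    rw [Subgroup.closure_union, closure_eq, MonoidHom.map_closure]
  refine ⟨QW B (F ∙ e) ∪ extS D h '' A, ?_, ?_, fun g hg => ?_⟩
  · rintro g (hg | ⟨k, hk, rfl⟩)
    · obtain ⟨w, c, -, rfl⟩ := eq_rho_of_mem_Q1 D h hg
      exact ⟨_, _, _, rfl⟩
    · obtain ⟨x, u, c, rfl⟩ := a k hk
      exact ⟨_, _, _, extS_rho D h x u c⟩
  · rw [e1]
    exact pgroup_QW.to_sup_of_normal_left' (b.map _) (by rintro _ ⟨k, -, rfl⟩; exact extS_nm D h k)
  · obtain ⟨u, d, k, -, rfl⟩ := exists_rho_ext D h (hf g hg)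
    rw [e1]
    refine mul_mem (mem_sup_left (rho_mem_Q1 D e u d)) (mem_sup_right (mem_map_of_mem _ (c ?_)))
    exact (Subgroup.mul_mem_cancel_left _ (mem_sup_left (rho_mem_Q1 D e u d))).1 (mem_sup_right hg)

theorem sylow_le_of_rho [Fact p.Prime] [CharP F p] [Finite F] (D : SD B) (S : Sylow p (SUG B)) {T : Subgroup (SUG B)}
    (h : ∀ e u c, D.rhoS e u c ∈ S → D.rhoS e u c ∈ T) : (S : Subgroup (SUG B)) ≤ T := by
  obtain ⟨A, a, b, c⟩ := exists_eichler_gen _ D rfl _ S.isPGroup'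
  have e := S.is_maximal' b c
  rw [← e, closure_le]
  intro g hg
  have : g ∈ S := e.le (subset_closure hg)
  obtain ⟨x, u, d, rfl⟩ := a g hg
  exact h _ _ _ this

theorem stab_le_PE [Fact p.Prime] [CharP F p] [Finite F] (D : SD B) {e f : V} (h : SP B e f) {g : SUG B} (hg : g.1.1 e = e) :
    g ∈ PE p (QW B (F ∙ e)) := by
  obtain ⟨u, c, k, -, rfl⟩ := exists_rho_ext D h hg
  refine mul_mem (mem_PE (le_normalizer (rho_mem_Q1 D e u c)) (rho_pow D e u c).choose_spec) ?_
  have : (⊤ : Subgroup _) ≤ (PE p (QW B (F ∙ e))).comap (extS D h) := by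
    rw [← closure_rhoS (h.sd D) D.ns, closure_le]
    rintro _ ⟨x, u, c, rfl⟩
    refine mem_PE (extS_nm D h _) (k := (rho_pow (p := p) D (x : V) u c).choose) ?_
    rw [extS_rho]; exact (rho_pow D _ _ _).choose_spec
  exact this (mem_top k)

theorem mem_pair {e e' x : V} : x ∈ Submodule.span F {e, e'} ↔ ∃ a b : F, a • e + b • e' = x := Submodule.mem_span_pair

theorem rho_PE [Fact p.Prime] [CharP F p] [Finite F] (D : SD B) {W : Submodule F V} (hW : ∀ u ∈ W, ∀ v ∈ W, B u v = 0) {e : V}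
    (he : e ∈ W) (u : V) (c : F) : D.rhoS e u c ∈ PE p (QW B W) := by
  refine mem_PE (mem_nm_QW fun w hw => ?_) (rho_pow D e u c).choose_spec
  by_cases h : Adm B e u c
  · rw [D.coe_rhoS, rho_apply D h, hW e he w hw, zero_smul, add_zero]
    exact add_mem hw (W.smul_mem _ he)
  · rwa [D.coe_rhoS, rho_of_not h]

theorem exists_PE_smul [Fact p.Prime] [CharP F p] [Finite F] (D : SD B) {W : Submodule F V} (hW : ∀ u ∈ W, ∀ v ∈ W, B u v = 0)
    {e f e' f' : V} (h : SP B e f) (h' : SP B e' f') (he : e ∈ W) (he' : e' ∈ W) (h1 : B e f' = 0) (h2 : B e' f = 0)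
    {a : F} (ha : a ≠ 0) : ∃ m ∈ PE p (QW B W), m.1.1 e = a • e := by
  have A : ∀ {e f e' f' : V}, SP B e f → SP B e' f' → e ∈ W → e' ∈ W → B e f' = 0 → ∀ s x y : F,
      (D.rhoS e (σ (-s) • f') 0).1.1 (x • e + y • e') = (x + s * y) • e + y • e' := by
    intro e f e' f' h h' he he' h1 s x y
    rw [D.coe_rhoS, rho_apply D ⟨h.ee, by simp [h1], by simp [h'.ff]⟩]
    simp only [map_add, map_smul, LinearMap.map_smulₛₗ, LinearMap.smul_apply, h.ee, hW e he e' he', D.comm0 h1, h'.fe D,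
      D.invol, smul_eq_mul]
    module
  refine ⟨D.rhoS e' (σ (-(-a⁻¹)) • f) 0 * D.rhoS e (σ (-(a - 1)) • f') 0 * D.rhoS e' (σ (-1) • f) 0,
    mul_mem (mul_mem (rho_PE D hW he' _ _) (rho_PE D hW he _ _)) (rho_PE D hW he' _ _), ?_⟩
  have := A h' h he' he h2 1 0 1
  rw [zero_smul, zero_add, one_smul] at this
  rw [su_mul, su_mul, this, show (0 + 1 * 1 : F) • e' + e = (1 : F) • e + (1 : F) • e' by module, A h h' he he' h1, add_comm,
    A h' h he' he h2]
  match_scalars <;> field_simp <;> ring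

section
variable [Fact p.Prime] [CharP F p] [Finite F] (D : SD B) {S T : Subgroup (SUG B)} {e f : V} (h : SP B e f)
  (hQ : QW B (F ∙ e) ≤ S) (hT : SCl S T)
include D h hQ hT

theorem scl_conj {w : V} {c : F} (H : D.rhoS e w c ∈ T) (g : SUG B) {a : F} (hg : g.1.1 e = a • e) :
    D.rhoS (a • e) (g.1.1 w) c ∈ T := by
  rw [← hg, ← conj_rhoS]
  exact hT g _ H (hQ (conj_mem_of_mem_normalizer (nm_Q1 hg) (rho_mem_Q1 D e w c)))

theorem scl_ext {w : spp B e f} {c : F} (H : D.rhoS e w c ∈ T) (k : SUG (res B (spp B e f))) :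
    D.rhoS e (k.1.1 w : spp B e f) c ∈ T := by
  have := scl_conj D h hQ hT H (extS D h k) (a := 1) (by rw [(extS_fix D h k).1, one_smul])
  rwa [one_smul, extS_w] at this

omit hQ hT h in
theorem rhoS_mul {u u' : V} {c c' : F} (a : Adm B e u c) (a' : Adm B e u' c') :
    D.rhoS e u c * D.rhoS e u' c' = D.rhoS e (u + u') (c + c' + B u u') := Subtype.ext (rho_mul D a a')

omit hQ hT h in
theorem rhoS_tv {u : V} {c c' : F} (a : Adm B e u c) (a' : Adm B e u c') :
    D.rhoS e u c' = D.rhoS e 0 (c' - c) * D.rhoS e u c := Subtype.ext (rho_eq_tv_mul_rho D a a')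

omit hQ hT in
theorem all_rho_of (hU : ∀ w : spp B e f, ∃ c, Adm B e w c ∧ D.rhoS e w c ∈ T) (hC : ∀ c, σ c = c → D.rhoS e 0 c ∈ T)
    (u : V) (c : F) : D.rhoS e u c ∈ T := by
  by_cases a : Adm B e u c
  swap
  · rw [show D.rhoS e u c = 1 from Subtype.ext (rho_of_not a)]; exact one_mem _
  obtain ⟨w, d, b, e⟩ := eq_rho_of_mem_Q1 D h (rho_mem_Q1 D e u c)
  obtain ⟨d', b', H⟩ := hU w
  rw [e, rhoS_tv D b' b]
  refine mul_mem (hC _ ?_) H
  rw [map_sub]; linear_combination b'.cc - b.cc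

theorem all_rho_sp (hσ : σ = RingHom.id F) (h4 : 4 ≤ finrank F V) (hx : 3 ≤ Nat.card F ∨ 5 ≤ finrank F V) {w : spp B e f}
    (hw : w ≠ 0) {c : F} (H : D.rhoS e w c ∈ T) (u : V) (d : F) : D.rhoS e u d ∈ T := by
  have D' := h.sd D
  have ad : ∀ (w : spp B e f) c, Adm B e w c := fun w c => ⟨h.ee, spp_left w, by rw [D.self_eq_zero hσ, hσ]; simp⟩
  have h1 : ∀ u : spp B e f, u ≠ 0 → D.rhoS e u c ∈ T := fun u hu => by
    obtain ⟨k, hk, rfl⟩ := D'.erel D.ns (.inl hσ) (D'.self_eq_zero hσ w) hw (D'.self_eq_zero hσ u) hu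
    exact scl_ext D h hQ hT H ⟨k, D'.EG_le_SUG hk⟩
  have h2 : ∀ u u' : spp B e f, u ≠ 0 → u' ≠ 0 → u + u' ≠ 0 → D.rhoS e 0 (c + B u u') ∈ T := fun u u' a b ab => by
    have := mul_mem (h1 u a) (h1 u' b)
    rw [rhoS_mul D (ad _ _) (ad _ _), ← Submodule.coe_add, rhoS_tv D (ad _ c) (ad _ _),
      Subgroup.mul_mem_cancel_right _ (h1 _ ab)] at this
    rwa [show c + B u u' = c + c + B u u' - c by ring]
  have h3 : D.rhoS e 0 c ∈ T := by
    rcases hx with hx | hx
    · obtain ⟨a, a0, a1⟩ : ∃ a : F, a ≠ 0 ∧ a ≠ -1 := by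
        by_contra! H
        have : (Set.univ : Set F) ⊆ {0, -1} := fun a _ => (em (a = 0)).imp id (H a)
        have := (Set.ncard_le_ncard this).trans (Set.ncard_insert_le _ _)
        rw [Set.ncard_univ, Set.ncard_singleton] at this
        omega
      have := h2 w (a • w) hw (smul_ne_zero a0 hw) (by
        rw [show w + a • w = (a + 1) • w by module]
        exact smul_ne_zero (fun e => a1 (eq_neg_of_add_eq_zero_left e)) hw)
      rwa [Submodule.coe_smul, map_smul, D.self_eq_zero hσ, smul_zero, add_zero] at this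
    · obtain ⟨f', h'⟩ := D'.exists_SP (D'.self_eq_zero hσ w) hw
      haveI := h'.nontrivial_spp D' (by have := h.finrank_spp D; omega)
      obtain ⟨v, hv⟩ := exists_ne (0 : spp (res B (spp B e f)) w f')
      have := h2 w v hw (fun e => hv (Subtype.ext e)) (fun e0 => by
        have := congrArg (res B (spp B e f) f') e0
        rw [map_add, h'.fe D', spp_right, map_zero] at this
        simp at this)
      rwa [show B w v = 0 from spp_left v, add_zero] at this
  refine all_rho_of D h (fun u => ?_) (fun b _ => ?_) u d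
  · by_cases hu : u = 0
    · exact ⟨c, ad _ _, hu ▸ h3⟩
    · exact ⟨c, ad _ _, h1 u hu⟩
  by_cases hb : b = 0
  · rw [hb, show D.rhoS e 0 0 = 1 from Subtype.ext (rho_zero D e)]; exact one_mem _
  obtain ⟨f', h'⟩ := D'.exists_SP (D'.self_eq_zero hσ w) hw
  have := h2 w (b • f') hw (smul_ne_zero hb h'.ne_right) (fun e0 => by
    have := congrArg (res B (spp B e f) w) e0
    rw [map_add, map_smul, h'.ee, h'.ef, map_zero] at this
    simp [hb] at this)
  rw [Submodule.coe_smul, map_smul, show B w f' = 1 from h'.ef, smul_eq_mul, mul_one,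
    rhoS_tv D (u := 0) (ad 0 c) (ad 0 _), add_sub_cancel_left] at this
  exact (Subgroup.mul_mem_cancel_right _ h3).1 this

theorem all_rho_u (hσ : σ ≠ RingHom.id F) (h4 : 4 ≤ finrank F V) {w : spp B e f}
    (hw : w ≠ 0) {c : F} (a : Adm B e w c) (H : D.rhoS e w c ∈ T) (u : V) (d : F) : D.rhoS e u d ∈ T := by
  have D' := h.sd D
  let U : AddSubgroup (spp B e f) :=
    { carrier := {w | ∃ c, Adm B e w c ∧ D.rhoS e w c ∈ T}
      zero_mem' := ⟨0, adm_zero h.ee (map_zero σ), by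
        rw [show D.rhoS e (0 : spp B e f) 0 = 1 from Subtype.ext (rho_zero D e)]; exact one_mem _⟩
      add_mem' := fun ⟨c, a, b⟩ ⟨c', a', b'⟩ => ⟨_, a.add D a', rhoS_mul D a a' ▸ mul_mem b b'⟩
      neg_mem' := fun ⟨c, a, b⟩ => ⟨_, a.neg D, by
        have := inv_mem b
        rwa [show (D.rhoS e _ c)⁻¹ = D.rhoS e _ _ from Subtype.ext (rho_inv D a)] at this⟩ }
  have hU : ∀ x ∈ U, ∀ k : SUG (res B (spp B e f)), k.1.1 x ∈ U := fun x ⟨c, a, b⟩ k =>
    ⟨c, by
      have := (adm_conj (extS D h k).1).2 a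
      rwa [(extS_fix D h k).1, extS_w] at this, scl_ext D h hQ hT b k⟩
  obtain ⟨e', he0, he⟩ := D'.exists_iso D.ns (by have := h.finrank_spp D; omega)
  obtain ⟨v, hv0, hv, hvU⟩ : ∃ v : spp B e f, v ≠ 0 ∧ B v v = 0 ∧ v ∈ U := by
    obtain ⟨v, hv, h1⟩ : ∃ v : spp B e f, B v v = 0 ∧ B v w ≠ 0 := by
      by_contra! H
      refine hw (D'.sep _ fun y => D'.comm0 (D'.iso_induction he he0 (p := fun y => B y w = 0) H (fun x y a b => ?_) y))
      rw [Submodule.coe_add, map_add, LinearMap.add_apply, a, b, add_zero]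
    have := sub_mem (hU w ⟨c, a, H⟩ (D'.tvS v 1)) (show w ∈ U from ⟨c, a, H⟩)
    rw [D'.coe_tvS, tv_apply D' hv (map_one σ), add_sub_cancel_left, one_mul] at this
    refine ⟨_, smul_ne_zero h1 fun e0 => h1 (by simp [e0]), ?_, this⟩
    simp [hv]
  obtain ⟨f', h'⟩ := D'.exists_SP hv hv0
  have h'' : SP B (v : V) f' := ⟨h'.ee, h'.ff, h'.ef⟩
  have sq : ∀ s : F, (s ^ 2) • v ∈ U := fun s => by
    by_cases hs : s = 0
    · rw [hs, zero_pow two_ne_zero, zero_smul]; exact zero_mem _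
    obtain ⟨c, a, b⟩ := hvU
    let g : SUG B := ⟨h.torus D (Units.mk0 _ (D.σ_ne_zero hs)) * h''.torus D (Units.mk0 s hs), by
      rw [SUG, MonoidHom.mem_ker, map_mul, ← Units.val_inj, Units.val_mul, h.det_torus, h''.det_torus]
      have := D.σ_ne_zero hs
      simp only [Units.val_mk0, D.invol, Units.val_one]
      field_simp⟩
    have g1 : g.1.1 e = σ s • e := by
      change (h.torus D _).1 ((h''.torus D _).1 e) = _
      rw [h''.torus_w D _ ⟨e, mem_sperp_pair.2 ⟨D.spp_left' v, D.spp_left' f'⟩⟩, h.torus_e]; rfl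
    have g2 : g.1.1 v = s • (v : V) := by
      change (h.torus D _).1 ((h''.torus D _).1 v) = _
      rw [h''.torus_e, map_smul, h.torus_w]; rfl
    have h1 := scl_conj D h hQ hT b g g1
    have a1 : Adm B e (s • (v : V)) c := ⟨h.ee, by simp [a.eu], by rw [a.cc]; simp [hv]⟩
    rw [g2, show D.rhoS (σ s • e) (s • (v : V)) c = D.rhoS e _ _ from Subtype.ext (rho_smul D a1 _), D.invol, smul_smul,
      ← pow_two] at h1
    refine ⟨_, ?_, h1⟩
    have := a1.smul_right D s
    rwa [smul_smul, ← pow_two, mul_comm s] at this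
  have sm : ∀ s : F, s • v ∈ U := fun s => by
    by_cases h2 : ringChar F = 2
    · obtain ⟨r, rfl⟩ := FiniteField.isSquare_of_char_two h2 s
      rw [← pow_two]; exact sq r
    · have : (2 : F) ≠ 0 := Ring.two_ne_zero h2
      rw [show s = ((s + 1) / 2) ^ 2 - ((s - 1) / 2) ^ 2 by field_simp; ring, sub_smul]
      exact sub_mem (sq _) (sq _)
  refine all_rho_of D h (fun x => D'.iso_induction he he0 (p := fun x => x ∈ U) (fun x hx => ?_) (fun _ _ => add_mem) x)
    (fun b hb => ?_) u d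
  · by_cases h0 : x = 0
    · rw [h0]; exact zero_mem _
    obtain ⟨s, -, hs⟩ := h'.exists_erel D' hx h0
    obtain ⟨k, hk, rfl⟩ := hs.symm
    exact hU _ (sm s) ⟨k, D'.EG_le_SUG hk⟩
  obtain ⟨s, hs0, hs⟩ := exists_skew hσ D.invol
  obtain ⟨t, ht⟩ := exists_sub_conj_eq hσ D.invol (t := b * s) (by rw [map_mul, hb, hs, mul_neg])
  obtain ⟨y, hy⟩ := D'.exists_ne hw
  replace hy : B w y ≠ 0 := hy
  obtain ⟨c', a'⟩ := exists_adm D h.ee (spp_left ((t / s / B w y) • y))
  have h1 : ⁅D.rhoS e w c, D.rhoS e ((t / s / B w y) • y : spp B e f) c'⁆ = D.rhoS e 0 b := by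
    refine Subtype.ext ((commutator_rho D a a').trans ?_)
    rw [Submodule.coe_smul, map_smul, smul_eq_mul, div_mul_cancel₀ _ hy, map_div₀, hs, div_neg, ← sub_eq_add_neg, ← sub_div, ht,
      mul_div_cancel_right₀ _ hs0]
    rfl
  rw [← h1, commutatorElement_def, mul_assoc, mul_assoc, ← inv_inv (D.rhoS e _ c'), ← mul_assoc _ _ _⁻¹⁻¹⁻¹, inv_inv]
  refine mul_mem H (hT _ _ (inv_mem H) (hQ ?_))
  exact mul_mem (mul_mem (rho_mem_Q1 D _ _ _) (inv_mem (rho_mem_Q1 D _ _ _))) (inv_mem (rho_mem_Q1 D _ _ _))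

end

theorem simple_SUG [Fact p.Prime] [CharP F p] [Finite F] (D : SD B) (h4 : 4 ≤ finrank F V)
    (hx : σ = RingHom.id F → 3 ≤ Nat.card F ∨ 5 ≤ finrank F V) {H : Type*} [Group H] [Finite H] (π : SUG B →* H)
    (hπ : Function.Surjective π) (hZ : π.ker ≤ center (SUG B)) (S' : Sylow p H) :
    (groupFusionSystem (S' : Subgroup H)).IsSimple p := by
  obtain ⟨S⟩ : Nonempty (Sylow p (SUG B)) := inferInstance
  obtain ⟨e, he0, he, hf⟩ := exists_fixed_iso D (by omega) S.isPGroup'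
  obtain ⟨f, h⟩ := D.exists_SP he he0
  have D' := h.sd D
  obtain ⟨e', he0', he', hf'⟩ := exists_fixed_iso D' (by have := h.finrank_spp D; omega)
    (S.isPGroup'.comap_of_injective _ (extS_inj D h))
  obtain ⟨f', h'⟩ := D'.exists_SP he' he0'
  have h'' : SP B (e' : V) f' := ⟨h'.ee, h'.ff, h'.ef⟩
  have m1 := Submodule.mem_span_singleton_self (R := F) e
  have n1 : NC ⊥ S (QW B (F ∙ e)) := nc_QW D (ti_line he) h m1 S fun s hs w hw => by
    obtain ⟨a, rfl⟩ := Submodule.mem_span_singleton.1 hw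
    rwa [map_smul, hf s hs]
  have hW : ∀ u ∈ Submodule.span F {e, (e' : V)}, ∀ v ∈ Submodule.span F {e, (e' : V)}, B u v = 0 := fun u hu v hv => by
    obtain ⟨a, b, rfl⟩ := mem_pair.1 hu
    obtain ⟨a', b', rfl⟩ := mem_pair.1 hv
    simp [he, h''.ee, spp_left e', D.spp_left' e']
  have m2 : e ∈ Submodule.span F {e, (e' : V)} := Submodule.subset_span (by simp)
  have m3 : (e' : V) ∈ Submodule.span F {e, (e' : V)} := Submodule.subset_span (by simp)
  have n2 : NC ⊥ S (QW B (Submodule.span F {e, (e' : V)})) := nc_QW D hW h m2 S fun s hs w hw => by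
    obtain ⟨a, b, rfl⟩ := mem_pair.1 hw
    rw [map_add, map_smul, map_smul, hf s hs]
    refine add_mem (Submodule.smul_mem _ _ m2) (Submodule.smul_mem _ _ ?_)
    obtain ⟨u, c, k, a, rfl⟩ := exists_rho_ext D h (hf s hs)
    have hk := hf' k ((Subgroup.mul_mem_cancel_left (S : Subgroup (SUG B)) (n1.le (rho_mem_Q1 D e u c))).1 hs)
    rw [su_mul, extS_w, hk, D.coe_rhoS, rho_apply D a, spp_left, zero_smul, add_zero]
    exact add_mem m3 (Submodule.smul_mem _ _ m2)
  have t1 : D.rhoS e 0 1 ≠ 1 := fun H => D.tv_ne_one he he0 (map_one σ) one_ne_zero (congrArg Subtype.val H)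
  refine simple_of_cover' π hπ hZ S (eq_bot_iff.2 fun g hg => ?_) (fun H => t1 (mem_bot.1 (H ▸ n1.le (rho_mem_Q1 D _ _ _))))
    (fun T hT h0 hs => ?_) ?_ S'
  · obtain ⟨a, ha⟩ := (D.mem_center_SUG_iff D.ns (by omega)).1 (hZ hg.2)
    obtain ⟨k, hk⟩ := S.isPGroup' ⟨g, hg.1⟩
    exact mem_bot.2 (su_ext fun x => su_fix_of_smul (ha x) (congrArg Subtype.val hk))
  · have key : ∀ u c, D.rhoS e u c ∈ T := by
      obtain ⟨w, c, hw, a, H⟩ : ∃ (w : spp B e f) (c : F), w ≠ 0 ∧ Adm B e w c ∧ D.rhoS e w c ∈ T := by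
        obtain ⟨z, hz, o, hc⟩ := hs.exists_central S.isPGroup' hT h0
        have := n1.cent z (hT hz) fun y hy => mem_bot.2 (commutatorElement_eq_one_iff_mul_comm.2 (hc y (n1.le hy)).symm)
        rw [sup_bot_eq] at this
        obtain ⟨w, c, a, rfl⟩ := eq_rho_of_mem_Q1 D h this
        by_cases hw : w = 0
        swap
        · exact ⟨w, c, hw, a, hz⟩
        subst hw
        have hc : σ c = c := by have := a.cc; simp only [ZeroMemClass.coe_zero, map_zero, sub_eq_zero] at this; exact this.symm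
        have hc0 : c ≠ 0 := by
          rintro rfl
          rw [show D.rhoS e (0 : spp B e f) 0 = 1 from Subtype.ext (rho_zero D e), orderOf_one] at o
          exact (Fact.out : p.Prime).one_lt.ne o
        have tr : ∀ v ∈ Submodule.span F {e, (e' : V)}, v ≠ 0 → D.rhoS v 0 c ∈ T := fun v hv v0 => by
          obtain ⟨g, hg, rfl⟩ := D.erel D.ns (.inr (by omega)) he he0 (hW v hv v hv) v0
          have := conj_rhoS D ⟨g, D.EG_le_SUG hg⟩ e 0 c
          rw [map_zero] at this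
          rw [← this]
          exact hs _ _ hz (this ▸ n2.le (rho_mem_QW D hW hv (zero_mem _) c))
        refine ⟨c • e', c, smul_ne_zero hc0 he0', ⟨he, spp_left _, by simp [hc, h''.ee]⟩, ?_⟩
        have e1 : D.rhoS e (c • (e' : V)) c = D.rhoS (e + e') 0 c * (D.rhoS e' 0 c)⁻¹ :=
          Subtype.ext ((rho_eq_tv_mul D he h''.ee (spp_left e') hc).trans (by rw [← tv_inv D]; rfl))
        rw [Submodule.coe_smul, e1]
        refine mul_mem (tr _ (add_mem m2 m3) fun e0 => ?_) (inv_mem (tr _ m3 h''.ne_left))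
        have := congrArg (B f) e0
        simp [h.fe D, spp_right e'] at this
      by_cases hσ : σ = RingHom.id F
      · exact all_rho_sp D h n1.le hs hσ h4 (hx hσ) hw H
      · exact all_rho_u D h n1.le hs hσ h4 hw a H
    refine sylow_le_of_rho D S fun x u c hx => ?_
    by_cases a : Adm B x u c
    swap
    · rw [show D.rhoS x u c = 1 from Subtype.ext (rho_of_not a)]; exact one_mem _
    by_cases x0 : x = 0
    · rw [show D.rhoS x u c = 1 from su_ext fun y => by rw [D.coe_rhoS, rho_apply D a]; simp [x0]]; exact one_mem _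
    obtain ⟨g, hg, rfl⟩ := D.erel D.ns (.inr (by omega)) he he0 a.ee x0
    have := conj_rhoS D ⟨g, D.EG_le_SUG hg⟩ e ((g⁻¹).1 u) c
    rw [UG_apply_inv] at this
    rw [← this] at hx ⊢
    exact hs _ _ (key _ _) hx
  let K : Subgroup (SUG B) :=
    { carrier := {g | g.1.1 e = e}
      one_mem' := rfl
      mul_mem' := fun {a b} ha hb => by change a.1.1 (b.1.1 e) = e; rw [hb, ha]
      inv_mem' := fun ha => UG_inv_apply_eq ha }
  refine le_goodN_of_two (K := K) (P := normalizer (K : Set (SUG B))) S n1 n2 hf (fun g hg => stab_le_PE D h hg)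
    le_normalizer le_rfl fun g hg => ?_
  have fx : ∀ s ∈ S, s.1.1 (g.1.1 e) = g.1.1 e := fun s hs => by
    have := hf _ (conj_mem_of_mem_normalizer (inv_mem hg) hs)
    rw [su_mul, su_mul, inv_inv] at this
    rw [← su_app_inv g (s.1.1 _), this]
  have x1 : B e (g.1.1 e) = 0 := by
    have := fx _ (n1.le (rho_mem_Q1 D e 0 1))
    rw [D.coe_rhoS, rho_apply D (adm_zero he (map_one σ))] at this
    simpa [he0] using this
  have x2 : g.1.1 e ∈ F ∙ e := by
    rw [← D.sperp_sperp (F ∙ e)]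
    refine mem_sperp.2 fun u hu => ?_
    obtain ⟨c, a⟩ := exists_adm D he (mem_sperp_singleton.1 hu)
    have := fx _ (n1.le (rho_mem_Q1 D e u c))
    rw [D.coe_rhoS, rho_apply D a, x1] at this
    simpa [he0] using this
  obtain ⟨a, ha⟩ := Submodule.mem_span_singleton.1 x2
  have a0 : a ≠ 0 := by
    rintro rfl
    exact UG_ne_zero g.1 he0 (by rw [← ha, zero_smul])
  obtain ⟨m, hm, hm'⟩ := exists_PE_smul (p := p) D hW h h'' m2 m3 (spp_left f') (D.spp_right' e') a0
  have hm'' : (m⁻¹).1.1 e = a⁻¹ • e := UG_inv_apply_eq (by rw [map_smul, hm', smul_smul, inv_mul_cancel₀ a0, one_smul])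
  refine ⟨m, ⟨mem_normalizer_fintype fun y hy => ?_, hm⟩, ?_⟩
  · change m.1.1 (y.1.1 ((m⁻¹).1.1 e)) = e
    rw [hm'', map_smul, show y.1.1 e = e from hy, ← hm'', su_app_inv]
  · change g.1.1 ((m⁻¹).1.1 e) = e
    rw [hm'', map_smul, ← ha, smul_smul, inv_mul_cancel₀ a0, one_smul]

theorem simple_quot_of_equiv {G G' : Type*} [Group G] [Group G'] (e : G ≃* G') :
    Function.Surjective ((QuotientGroup.mk' (center G)).comp e.symm.toMonoidHom) ∧
      ((QuotientGroup.mk' (center G)).comp e.symm.toMonoidHom).ker ≤ center G' := by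
  refine ⟨(QuotientGroup.mk'_surjective _).comp e.symm.surjective, fun x hx => mem_center_iff.2 fun y => e.symm.injective ?_⟩
  rw [map_mul, map_mul]
  exact mem_center_iff.1 ((QuotientGroup.eq_one_iff _).1 hx) _

end Cfsg.Agent.H23
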