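import Cfsg.Agent.H29.Root3

/-!
# Triangles of abstract transvection groups
-/

set_option autoImplicit false

namespace Cfsg.Agent.H23.Tri

open Subgroup Cfsg.Agent.H29
open scoped commutatorElement

variable {G : Type*} [Group G] {A B C : Subgroup G} {a b c m : G}

theorem tri_ne (h1 : IsRankOnePair A B) (h2 : IsRankOnePair C B) (h3 : ⁅A, C⁆ = ⊥) (h4 : A ≠ C) (ha : a ∈ A)
    (a1 : a ≠ 1) (hc : c ∈ C) : conjBy B a ≠ conjBy B c := fun e => by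
  have c1 : c ≠ 1 := by rintro rfl; exact a1 (r1_eq_one h1 ha (by rwa [conjBy_one] at e))
  have e1 : B ⊔ C = B ⊔ A := by rw [sup_comm, ← (r1_self_conj h2 hc c1).2, ← e, (r1_self_conj h1 ha a1).2, sup_comm]
  have h5 := r1_right_mem_unip (r1_symm h2)
  rw [unipotentSubgroups, e1] at h5
  exact r1_not_comm (r1_of_unip (r1_symm h1) (r1_right_mem_unip (r1_symm h1)) h5 h4).1 h3

theorem exists_good (hA : IsMulCommutative A) (h1 : IsRankOnePair A B) (h2 : IsRankOnePair C B) (h3 : ⁅A, C⁆ = ⊥)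
    (h4 : A ≠ C) (ha : a ∈ A) (a1 : a ≠ 1) : ∃ c ∈ C, (∀ x ∈ A, a⁻¹ * c * x = x * (a⁻¹ * c)) ∧
      ⁅B, conjBy B (a⁻¹ * c)⁆ = ⊥ ∧ conjBy B (a⁻¹ * c) ≠ B := by
  obtain ⟨b, hb, b1, e1⟩ := r1_cond h1 ha a1
  obtain ⟨c, hc, -, e2⟩ := r1_cond (r1_symm h2) hb b1
  refine ⟨c, hc, fun x hx => Commute.mul_left (comm_of_isMulCommutative hA (inv_mem ha) hx) (cm_el h3 hx hc).symm,
    ?_, fun e => tri_ne h1 h2 h3 h4 ha a1 hc (conjBy_eq_conjBy_iff.2 e).symm⟩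
  have := cm_conj (cm_conj h3 b) a⁻¹
  rwa [e1, ← e2, conjBy_inv_conjBy, conjBy_conjBy] at this

section

variable (hA : IsMulCommutative A) (hB : IsMulCommutative B) (h1 : IsRankOnePair A B)
  (m1 : ∀ x ∈ A, m * x = x * m) (m2 : ⁅B, conjBy B m⁆ = ⊥) (ha : a ∈ A) (hb : b ∈ B)
include hA hB h1 m1 m2 hb

omit hB in
theorem good_left : ⁅A, conjBy A (b * m * b⁻¹ * m⁻¹)⁻¹⁆ = ⊥ := by
  have e : conjBy A (b * m * b⁻¹ * m⁻¹)⁻¹ = conjBy A (b⁻¹ * m * b) := by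
    have := cm_el m2 (inv_mem hb) (conj_mem_conjBy hb m)
    rw [show (b * m * b⁻¹ * m⁻¹)⁻¹ = m * b * m⁻¹ * b⁻¹ by group, ← this, ← mul_assoc, ← mul_assoc,
      ← conjBy_conjBy _ m⁻¹, conjBy_of_comm fun x hx => (Commute.inv_left (m1 x hx)).eq]
  rw [e, ← cm_conj_iff (g := b), conjBy_conjBy, mul_assoc, mul_inv_cancel_left, ← conjBy_conjBy]
  rcases (r1_mem_unip_iff h1).1 (unip_conj left_mem_unip (mem_sup_right hb)) with e | ⟨x, hx, e⟩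
  · rw [e, conjBy_of_comm m1]; exact cm_self hA
  · rw [e, conjBy_conjBy, m1 x hx, ← conjBy_conjBy, cm_conj_iff]; exact m2

omit hA h1 m1 in
theorem good_right : ∀ y ∈ B, b * m * b⁻¹ * m⁻¹ * y = y * (b * m * b⁻¹ * m⁻¹) := fun y hy => by
  rw [mul_assoc b, mul_assoc b]
  exact Commute.mul_left (comm_of_isMulCommutative hB hb hy) (cm_el m2 hy (conj_mem_conjBy (inv_mem hb) m)).symm

variable (e : conjBy A b = conjBy B a)
include ha e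

theorem central : ∀ x ∈ A ⊔ B, (b * m * b⁻¹ * m⁻¹)⁻¹ * a⁻¹ * (b * m * b⁻¹ * m⁻¹)⁻¹⁻¹ * (a * m) * x =
    x * ((b * m * b⁻¹ * m⁻¹)⁻¹ * a⁻¹ * (b * m * b⁻¹ * m⁻¹)⁻¹⁻¹ * (a * m)) := by
  refine comm_sup (fun x hx => Commute.mul_left (cm_el (good_left hA h1 m1 m2 hb) hx
    (conj_mem_conjBy (inv_mem ha) _)).symm (Commute.mul_left (comm_of_isMulCommutative hA ha hx) (m1 x hx)))
    fun y hy => ?_
  rw [← m1 a ha, show (b * m * b⁻¹ * m⁻¹)⁻¹ * a⁻¹ * (b * m * b⁻¹ * m⁻¹)⁻¹⁻¹ * (m * a) =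
    (b * m * b⁻¹ * m⁻¹)⁻¹ * (a⁻¹ * b * m * (a⁻¹ * b)⁻¹) by group]
  refine Commute.mul_left (Commute.inv_left (good_right hB m2 hb y hy)) ?_
  obtain ⟨x, hx, rfl⟩ := mem_conjBy'.1 ((conjBy_eq_conjBy_iff.1 e).ge hy)
  exact Commute.conj (m1 x hx) _

theorem fix : m * (b * a * b⁻¹ * (a * b * a⁻¹)) * m⁻¹ = b * a * b⁻¹ * (a * b * a⁻¹) := by
  obtain ⟨y, hy, e1⟩ := mem_conjBy'.1 (e.le (conj_mem_conjBy ha b))
  have h2 := good_right hB m2 hb b hb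
  have h3 := good_right hB m2 hb y hy
  have h4 := central hA hB h1 m1 m2 ha hb e b (mem_sup_right hb)
  have h5 := cm_el (good_left hA h1 m1 m2 hb) ha (conj_mem_conjBy ha _)
  have h6 : m * b * m⁻¹ = (b * m * b⁻¹ * m⁻¹)⁻¹ * b := by group
  have h7 : b * m * b⁻¹ = b * m * b⁻¹ * m⁻¹ * m := by group
  have h8 := m1 a ha
  generalize b * m * b⁻¹ * m⁻¹ = E at h2 h3 h4 h5 h6 h7
  rw [inv_inv] at h4 h5
  have h9 : b * (E⁻¹ * a * E * a⁻¹) * b⁻¹ = a * E * a⁻¹ := by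
    have h10 : E⁻¹ * a * E * a⁻¹ = m * (E⁻¹ * a⁻¹ * E * (a * m))⁻¹ := by
      rw [eq_comm, ← mul_left_inj a, inv_mul_cancel_right, ← mul_right_inj a, h5]; group
    rw [h10, mul_assoc, mul_assoc, (Commute.inv_inv h4).eq, ← mul_assoc m, ← mul_assoc, ← mul_assoc b, h7, mul_assoc,
      ← h10]
    group
  calc _ = m * b * m⁻¹ * (m * a * m⁻¹) * (m * b * m⁻¹)⁻¹ * (m * a * m⁻¹ * (m * b * m⁻¹) * (m * a * m⁻¹)⁻¹) := by group
    _ = b * (E⁻¹ * a * E * a⁻¹) * b⁻¹ * (b * a * b⁻¹) * (a * E⁻¹ * b * a⁻¹) := by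
      rw [h8, mul_inv_cancel_right, h6]
      nth_rewrite 1 2 [(Commute.inv_left h2).eq]
      group
    _ = a * (E * y) * E⁻¹ * b * a⁻¹ := by rw [h9, e1]; group
    _ = _ := by rw [h3, e1]; group

end

variable {S : Set (Subgroup G)} (hS : IsRootSubgroupSet S) (hA : A ∈ S) (hB : B ∈ S) (h1 : IsRankOnePair A B)
  (h2 : IsRankOnePair C B) (h3 : ⁅A, C⁆ = ⊥) (h4 : A ≠ C)
include hS hA hB h1 h2 h3 h4

theorem special : IsSpecialRankOnePair A B := by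
  refine ⟨h1, fun a ha a1 b hb _ e => ?_⟩
  have hA' := hS.commutative A hA
  obtain ⟨c, -, m1, m2, m3⟩ := exists_good hA' h1 h2 h3 h4 ha a1
  generalize a⁻¹ * c = m at m1 m2 m3
  have h5 := fix hA' (hS.commutative B hB) h1 m1 m2 (inv_mem ha) (inv_mem hb) e
  have h6 : b⁻¹ * a⁻¹ * b⁻¹⁻¹ * (a⁻¹ * b⁻¹ * a⁻¹⁻¹) ∈ conjBy B a⁻¹ :=
    mul_mem (e.le (conj_mem_conjBy (inv_mem ha) _)) (conj_mem_conjBy (inv_mem hb) _)
  have h7 : b⁻¹ * a⁻¹ * b⁻¹⁻¹ * (a⁻¹ * b⁻¹ * a⁻¹⁻¹) = 1 := by_contra fun h => m3 (by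
    have := ti_of_r1 hS (hS.conj_mem B hB _) hB (r1_symm (r1_self_conj h1 (inv_mem ha) (inv_ne_one.2 a1)).1)
      (hS.conj_mem _ (hS.conj_mem B hB a⁻¹) m) h6 (h5 ▸ conj_mem_conjBy h6 m) h
    rwa [conjBy_conjBy, m1 _ (inv_mem ha), ← conjBy_conjBy, conjBy_inj, eq_comm] at this)
  rw [mul_eq_one_iff_inv_eq] at h7
  simpa only [mul_inv_rev, inv_inv, mul_assoc] using h7

/-- if the commuting partners of `A` centralise a rank one partner, the diagonal subgroup centralises products -/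
theorem diag_fix {E : Subgroup G} (hC : C ∈ S) (hE : IsRankOnePair A E)
    (h5 : ∀ P ∈ S, P ≠ A → ⁅A, P⁆ = ⊥ → ⁅P, E⁆ = ⊥) {a a' h : G} (ha : a ∈ A) (a1 : a ≠ 1) (ha' : a' ∈ A)
    (a2 : a' ≠ 1) (hh : h ∈ rankOneDiagonal A B) : h * (a * a') * h⁻¹ = a * a' := by
  have hA' := hS.commutative A hA
  have hB' := hS.commutative B hB
  obtain ⟨c, hc, m1, m2, m3⟩ := exists_good hA' h1 h2 h3 h4 (inv_mem ha') (inv_ne_one.2 a2)
  rw [inv_inv] at m1 m2 m3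
  obtain ⟨b, hb, b1, e⟩ := r1_cond h1 ha a1
  have h6 := central hA' hB' h1 m1 m2 ha hb e h hh.1.1
  have h7 := good_left hA' h1 m1 m2 hb
  have h8 : conjBy A (b * (a' * c) * b⁻¹ * (a' * c)⁻¹)⁻¹ ≠ A := fun e1 => by
    have h9 := r1_conj (r1_symm h1) (a' * c)
    rw [conjBy_of_comm m1] at h9
    refine tri_ne (r1_symm h1) h9 m2 m3.symm hb b1 (conj_mem_conjBy hb (a' * c)) (conjBy_eq_conjBy_iff.2 ?_).symm
    rw [cm_el m2 (inv_mem hb) (conj_mem_conjBy hb _), ← e1, e1]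
    convert e1 using 2
    group
  have h9 := conj_mem_conjBy (inv_mem ha) (b * (a' * c) * b⁻¹ * (a' * c)⁻¹)⁻¹
  have h10 := hS.conj_mem A hA (b * (a' * c) * b⁻¹ * (a' * c)⁻¹)⁻¹
  generalize (b * (a' * c) * b⁻¹ * (a' * c)⁻¹)⁻¹ * a⁻¹ * (b * (a' * c) * b⁻¹ * (a' * c)⁻¹)⁻¹⁻¹ = d at h6 h9
  generalize conjBy A (b * (a' * c) * b⁻¹ * (a' * c)⁻¹)⁻¹ = D at h7 h8 h9 h10
  have n := conjBy_eq_self_iff.2 hh.1.2
  have k : ∀ P ∈ S, P ≠ A → ⁅A, P⁆ = ⊥ → ∀ p ∈ P, ∀ y ∈ E, Commute p y ∧ Commute (h * p * h⁻¹) y :=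
    fun P hP e1 e2 p hp y hy => ⟨cm_el (h5 P hP e1 e2) hp hy, cm_el (h5 _ (hS.conj_mem P hP h)
      (fun e3 => e1 (conjBy_inj.1 (e3.trans n.symm))) (n ▸ cm_conj e2 h)) (conj_mem_conjBy hp h) hy⟩
  have h11 : h * (a * a') * h⁻¹ ∈ A := n.le (conj_mem_conjBy (mul_mem ha ha') h)
  rw [eq_comm, ← mul_inv_eq_one]
  refine r1_eq_one_of_comm hE (mul_mem (mul_mem ha ha') (inv_mem h11)) fun y hy => ?_
  have e1 : a * a' * (h * (a * a') * h⁻¹)⁻¹ = d⁻¹ * (h * d * h⁻¹) * (h * c * h⁻¹ * c⁻¹) := by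
    have e2 : a * a' = d⁻¹ * (h * d * h⁻¹) * (h * (a * a') * h⁻¹) * (h * c * h⁻¹ * c⁻¹) := by
      calc _ = d⁻¹ * (d * (a * (a' * c)) * h) * h⁻¹ * c⁻¹ := by group
        _ = _ := by rw [h6]; group
    have e3 : Commute (h * (a * a') * h⁻¹) (h * c * h⁻¹ * c⁻¹) :=
      Commute.mul_right (Commute.conj (cm_el h3 (mul_mem ha ha') hc) h) (cm_el h3 h11 (inv_mem hc))
    nth_rewrite 1 [e2]
    rw [mul_assoc _ _ (h * c * h⁻¹ * c⁻¹), e3.eq, ← mul_assoc, mul_inv_cancel_right]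
  rw [e1]
  exact (((k D h10 h8 h7 d h9 y hy).1.inv_left.mul_left (k D h10 h8 h7 d h9 y hy).2).mul_left
    ((k C hC h4.symm h3 c hc y hy).2.mul_left (k C hC h4.symm h3 c hc y hy).1.inv_left)).eq

end Cfsg.Agent.H23.Tri
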